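import Mathlib

/-!
Normal forms of nilpotent skew endomorphisms for alternating forms: pairings of chains, coefficient formula.
-/

set_option autoImplicit false

namespace CfsgLib.Classical.SympUnipotent

open Module

variable {F : Type*} [Field F] {V : Type*} [AddCommGroup V] [Module F V]

/-- `X` is skew-adjoint for the alternating form `B`. -/
structure Skew (B : LinearMap.BilinForm F V) (X : Module.End F V) : Prop where
  alt : B.IsAlt
  skew : ∀ x y, B (X x) y = -B x (X y)

variable {B : LinearMap.BilinForm F V} {X : Module.End F V}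

theorem Skew.pow (h : Skew B X) (l : ℕ) : ∀ x y, B ((X ^ l) x) y = (-1) ^ l * B x ((X ^ l) y) := by
  induction l with
  | zero => intro x y; simp
  | succ l ih =>
    intro x y
    rw [pow_succ', Module.End.mul_apply, h.skew, ih, ← Module.End.mul_apply (f := X ^ l) (g := X),
      ← pow_succ, ← pow_succ']
    ring

theorem Skew.pow_pow (h : Skew B X) (l r : ℕ) (x y : V) :
    B ((X ^ l) x) ((X ^ r) y) = (-1) ^ l * B x ((X ^ (l + r)) y) := by
  rw [h.pow, ← Module.End.mul_apply, ← pow_add]

theorem Skew.swap (h : Skew B X) (m : ℕ) (x y : V) :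
    B x ((X ^ m) y) = -((-1) ^ m * B y ((X ^ m) x)) := by
  rw [← h.pow]
  exact (LinearMap.IsAlt.neg h.alt _ _).symm

/-- Number of chains in an elementary piece. -/
def sz (j : ℕ) : ℕ := if Even j then 1 else 2

theorem sz_pos (j : ℕ) : 0 < sz j := by unfold sz; split_ifs <;> norm_num

theorem sz_even {j : ℕ} (hj : Even j) : sz j = 1 := if_pos hj

theorem sz_odd {j : ℕ} (hj : Odd j) : sz j = 2 := if_neg (Nat.not_even_iff_odd.2 hj)

/-- Top pairings of the elementary pieces; the flag selects the class of `d`. -/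
def gv (d : F) (t : ℕ × Bool) (a b : ℕ) : F :=
  if Even t.1 then (if t.2 then d else 1) else (if a < b then 1 else if b < a then -1 else 0)

theorem gv_nondeg {d : F} (hd : d ≠ 0) (t : ℕ × Bool) (c : Fin (sz t.1) → F)
    (h : ∀ b : Fin (sz t.1), ∑ a, c a * gv d t a b = 0) : c = 0 := by
  rcases t with ⟨j, s⟩
  rcases Nat.even_or_odd j with hj | hj
  · have hs := sz_even hj
    funext a
    have h1 := h a
    rw [Finset.sum_eq_single a (fun b _ hb => absurd (Fin.ext (by have := a.2; have := b.2; simp only [hs] at *; omega)) hb)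
      (fun hh => absurd (Finset.mem_univ _) hh)] at h1
    have hne : gv d (j, s) a a ≠ 0 := by
      unfold gv; rw [if_pos hj]; split_ifs <;> [exact hd; exact one_ne_zero]
    exact (mul_eq_zero.1 h1).resolve_right hne
  · have hs : sz j = 2 := sz_odd hj
    change Fin (sz j) → F at c
    change ∀ b : Fin (sz j), _ at h
    revert c h
    rw [hs]
    intro c h
    have hn := Nat.not_even_iff_odd.2 hj
    have h0 := h 0
    have h1 := h 1
    simp [Fin.sum_univ_two, gv, hn] at h0 h1
    funext a
    fin_cases a <;> simp [h0, h1]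

/-- The index set of the chains of the configuration `t`. -/
abbrev Idx {ι : Type*} (t : ι → ℕ × Bool) := Σ i : ι, Fin (sz (t i).1) × Fin (t i).1

variable {ι : Type*} (t : ι → ℕ × Bool) (x : (i : ι) → Fin (sz (t i).1) → V)

/-- The vectors of the chains. -/
def chain (X : Module.End F V) (s : Idx t) : V := (X ^ (s.2.2 : ℕ)) (x s.1 s.2.1)

/-- `x` are the heads of a normal form of `X` on `U` with configuration `t`. -/
structure IsNF [DecidableEq ι] (B : LinearMap.BilinForm F V) (X : Module.End F V) (d : F) (U : Submodule F V) :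
    Prop where
  pos : ∀ i, 1 ≤ (t i).1
  mem : ∀ i a, x i a ∈ U
  kill : ∀ i a, (X ^ (t i).1) (x i a) = 0
  pair : ∀ i i' a b (m : ℕ), B (x i a) ((X ^ m) (x i' b)) =
    if i = i' ∧ m + 1 = (t i).1 then gv d (t i) a b else 0
  span_le : U ≤ Submodule.span F (Set.range (chain t x X))

variable {t x} [DecidableEq ι] {d : F} {U : Submodule F V}

theorem IsNF.chain_pair (h : IsNF t x B X d U) (hs : Skew B X) (i i' : ι) (a : Fin (sz (t i).1))
    (b : Fin (sz (t i').1)) (l r : ℕ) :
    B ((X ^ l) (x i a)) ((X ^ r) (x i' b)) =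
      if i = i' ∧ l + r + 1 = (t i).1 then (-1) ^ l * gv d (t i) a b else 0 := by
  rw [hs.pow_pow, h.pair, mul_ite, mul_zero]

/-- Coefficients are read off by pairing. -/
theorem IsNF.coef [Fintype ι] (h : IsNF t x B X d U) (hs : Skew B X) (c : Idx t → F) (i : ι)
    (b : Fin (sz (t i).1)) (l : Fin (t i).1) :
    B (∑ s, c s • chain t x X s) ((X ^ ((t i).1 - 1 - l)) (x i b)) =
      (-1) ^ (l : ℕ) * ∑ a, c ⟨i, a, l⟩ * gv d (t i) a b := by
  rw [map_sum, LinearMap.sum_apply, Fintype.sum_sigma, Finset.sum_eq_single i]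
  · rw [Fintype.sum_prod_type, Finset.mul_sum]
    refine Finset.sum_congr rfl fun a _ => ?_
    rw [Finset.sum_eq_single l]
    · rw [map_smul, LinearMap.smul_apply, smul_eq_mul, chain, h.chain_pair hs, if_pos ⟨rfl, by have := l.2; simp only; omega⟩]
      ring
    · intro l' _ hl
      rw [map_smul, LinearMap.smul_apply, chain, h.chain_pair hs, if_neg, smul_zero]
      rintro ⟨-, h2⟩
      apply hl
      have := l.2
      have := l'.2
      exact Fin.ext (by simp only at h2; omega)
    · exact fun hh => absurd (Finset.mem_univ _) hh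
  · intro i' _ hi
    refine Finset.sum_eq_zero fun s _ => ?_
    rw [map_smul, LinearMap.smul_apply, chain, h.chain_pair hs, if_neg, smul_zero]
    exact fun e => hi e.1
  · exact fun hh => absurd (Finset.mem_univ _) hh

theorem IsNF.coef_zero [Fintype ι] (h : IsNF t x B X d U) (hs : Skew B X) (hd : d ≠ 0) (c : Idx t → F) (i : ι)
    (l : Fin (t i).1) (h0 : ∀ b, B (∑ s, c s • chain t x X s) ((X ^ ((t i).1 - 1 - l)) (x i b)) = 0)
    (a : Fin (sz (t i).1)) : c ⟨i, a, l⟩ = 0 := by
  refine congrFun (gv_nondeg hd (t i) (fun a => c ⟨i, a, l⟩) fun b => ?_) a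
  have h1 := h0 b
  rw [h.coef hs] at h1
  exact (mul_eq_zero.1 h1).resolve_left (pow_ne_zero _ (neg_ne_zero.2 one_ne_zero))

theorem IsNF.linearIndependent [Fintype ι] (h : IsNF t x B X d U) (hs : Skew B X) (hd : d ≠ 0) :
    LinearIndependent F (chain t x X) :=
  Fintype.linearIndependent_iff.2 fun c hc => fun ⟨i, a, l⟩ => h.coef_zero hs hd c i l
    (fun b => by rw [hc, map_zero, LinearMap.zero_apply]) a

/-- The basis of a normal form on the whole space. -/
noncomputable def IsNF.basis [Fintype ι] (h : IsNF t x B X d ⊤) (hs : Skew B X) (hd : d ≠ 0) :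
    Basis (Idx t) F V :=
  Basis.mk (h.linearIndependent hs hd) h.span_le

@[simp] theorem IsNF.basis_apply [Fintype ι] (h : IsNF t x B X d ⊤) (hs : Skew B X) (hd : d ≠ 0) (s : Idx t) :
    h.basis hs hd s = chain t x X s := by simp [IsNF.basis]

theorem apply_chain (hk : ∀ i a, (X ^ (t i).1) (x i a) = 0) (s : Idx t) :
    X (chain t x X s) =
      if hl : (s.2.2 : ℕ) + 1 < (t s.1).1 then chain t x X ⟨s.1, s.2.1, ⟨s.2.2 + 1, hl⟩⟩ else 0 := by
  rw [chain, ← Module.End.mul_apply, ← pow_succ']
  split_ifs with hl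
  · rfl
  · have := s.2.2.2
    rw [show (s.2.2 : ℕ) + 1 = (t s.1).1 by omega, hk]

/-- Two normal forms with the same configuration are isometric. -/
theorem IsNF.exists_equiv [Fintype ι] {V' : Type*} [AddCommGroup V'] [Module F V'] {B' : LinearMap.BilinForm F V'}
    {X' : Module.End F V'} {x' : (i : ι) → Fin (sz (t i).1) → V'}
    (h : IsNF t x B X d ⊤) (h' : IsNF t x' B' X' d ⊤) (hs : Skew B X) (hs' : Skew B' X') (hd : d ≠ 0) :
    ∃ φ : V ≃ₗ[F] V', (∀ v, φ (X v) = X' (φ v)) ∧ ∀ v w, B' (φ v) (φ w) = B v w := by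
  set b := h.basis hs hd
  set b' := h'.basis hs' hd
  set φ := b.equiv b' (Equiv.refl _)
  have hφ : ∀ s, φ (chain t x X s) = chain t x' X' s := fun s => by
    rw [← h.basis_apply hs hd s, Basis.equiv_apply, Equiv.refl_apply, h'.basis_apply hs' hd]
  refine ⟨φ, fun v => ?_, fun v w => ?_⟩
  · refine LinearMap.congr_fun (f := φ.toLinearMap.comp X) (g := X'.comp φ.toLinearMap) (b.ext fun s => ?_) v
    simp only [LinearMap.comp_apply, LinearEquiv.coe_coe, b, IsNF.basis_apply, hφ, apply_chain h.kill,
      apply_chain h'.kill]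
    split_ifs <;> simp [hφ]
  · refine LinearMap.congr_fun₂ (f := B'.comp φ.toLinearMap φ.toLinearMap) (g := B)
      (LinearMap.BilinForm.ext_basis b fun s r => ?_) v w
    show B' (φ _) (φ _) = _
    simp only [b, IsNF.basis_apply, hφ]
    simp only [chain, h.chain_pair hs, h'.chain_pair hs']

end CfsgLib.Classical.SympUnipotent
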