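import Cfsg.Agent.Classical.SympUnipotent.Basic

/-!
The Cayley transform between unipotent isometries and nilpotent skew endomorphisms in odd characteristic.
-/

set_option autoImplicit false

namespace CfsgLib.Classical.SympUnipotent

open Module

variable {F : Type*} [Field F] {V : Type*} [AddCommGroup V] [Module F V] {B : LinearMap.BilinForm F V}

/-- `X` is the Cayley transform of `u`. -/
def IsCayley (u X : Module.End F V) : Prop := X * (u + 1) = u - 1

theorem isUnit_add_one (h2 : (2 : F) ≠ 0) {u : Module.End F V} (hu : IsNilpotent (u - 1)) : IsUnit (u + 1) := by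
  rw [show u + 1 = (u - 1) + (2 : F) • 1 by rw [two_smul]; abel]
  refine IsNilpotent.isUnit_add_right_of_commute hu ?_ ((Commute.one_right _).smul_right _)
  exact ⟨⟨(2 : F) • 1, (2 : F)⁻¹ • 1, by simp [smul_smul, h2], by simp [smul_smul, h2]⟩, rfl⟩

theorem exists_cayley (h2 : (2 : F) ≠ 0) (hA : B.IsAlt) {u : Module.End F V} {p : ℕ} (hu : (u - 1) ^ p = 0)
    (hiso : ∀ x y, B (u x) (u y) = B x y) : ∃ X, IsCayley u X ∧ Skew B X ∧ X ^ p = 0 := by
  obtain ⟨w, hw⟩ := isUnit_add_one h2 ⟨p, hu⟩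
  refine ⟨(u - 1) * ↑w⁻¹, ?_, ⟨hA, fun x y => ?_⟩, ?_⟩
  · show (u - 1) * ↑w⁻¹ * (u + 1) = u - 1
    rw [← hw, mul_assoc, Units.inv_mul, mul_one]
  · obtain ⟨a, ha⟩ : ∃ a, (u + 1) a = x := ⟨(↑w⁻¹ : Module.End F V) x, by
      rw [← hw, ← Module.End.mul_apply, Units.mul_inv, Module.End.one_apply]⟩
    obtain ⟨b, hb⟩ : ∃ b, (u + 1) b = y := ⟨(↑w⁻¹ : Module.End F V) y, by
      rw [← hw, ← Module.End.mul_apply, Units.mul_inv, Module.End.one_apply]⟩
    have hX : ∀ c, ((u - 1) * ↑w⁻¹ : Module.End F V) ((u + 1) c) = (u - 1) c := fun c => by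
      rw [← Module.End.mul_apply, ← hw, mul_assoc, Units.inv_mul, mul_one]
    subst ha hb
    rw [hX, hX]
    simp only [LinearMap.sub_apply, LinearMap.add_apply, Module.End.one_apply, map_sub, map_add, hiso]
    ring
  · have hc : Commute (u - 1) (↑w⁻¹ : Module.End F V) := by
      refine Commute.units_inv_right ?_
      rw [hw]
      exact ((Commute.refl u).sub_left (Commute.one_left _)).add_right (Commute.one_right _)
    rw [hc.mul_pow, hu, zero_mul]

theorem exists_of_skew (h2 : (2 : F) ≠ 0) {X : Module.End F V} (hs : Skew B X) {p : ℕ} (hX : X ^ p = 0) :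
    ∃ u : Module.End F V, IsCayley u X ∧ (∀ x y, B (u x) (u y) = B x y) ∧ (u - 1) ^ p = 0 := by
  have hun : IsUnit (1 - X) := IsNilpotent.isUnit_one_sub ⟨p, hX⟩
  obtain ⟨w, hw⟩ := hun
  refine ⟨(1 + X) * ↑w⁻¹, ?_, fun x y => ?_, ?_⟩
  · have hc : Commute (↑w : Module.End F V) (1 + X) := by
      rw [hw]; exact ((Commute.one_right _).add_right ((Commute.one_left X).sub_left (Commute.refl X)))
    show X * ((1 + X) * ↑w⁻¹ + 1) = (1 + X) * ↑w⁻¹ - 1
    have hinv : (↑w : Module.End F V) * ↑w⁻¹ = 1 := Units.mul_inv w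
    calc X * ((1 + X) * ↑w⁻¹ + 1) = X * ((1 + X) * ↑w⁻¹) + X * (↑w * ↑w⁻¹) := by
          rw [mul_add X, hinv]
      _ = (X * (1 + X) + X * (↑w : Module.End F V)) * ↑w⁻¹ := by
          noncomm_ring
      _ = ((1 + X) - ↑w) * ↑w⁻¹ := by rw [hw]; noncomm_ring
      _ = _ := by rw [sub_mul, hinv]
  · obtain ⟨a, ha⟩ : ∃ a, (1 - X) a = x := ⟨(↑w⁻¹ : Module.End F V) x, by
      rw [← hw, ← Module.End.mul_apply, Units.mul_inv, Module.End.one_apply]⟩
    obtain ⟨b, hb⟩ : ∃ b, (1 - X) b = y := ⟨(↑w⁻¹ : Module.End F V) y, by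
      rw [← hw, ← Module.End.mul_apply, Units.mul_inv, Module.End.one_apply]⟩
    have hU : ∀ c, ((1 + X) * ↑w⁻¹ : Module.End F V) ((1 - X) c) = (1 + X) c := fun c => by
      rw [← Module.End.mul_apply, ← hw, mul_assoc, Units.inv_mul, mul_one]
    subst ha hb
    rw [hU, hU]
    simp only [LinearMap.add_apply, LinearMap.sub_apply, Module.End.one_apply, map_add, map_sub, hs.skew]
    ring
  · have hcx : Commute X (↑w⁻¹ : Module.End F V) := by
      refine Commute.units_inv_right ?_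
      rw [hw]; exact (Commute.one_right _).sub_right (Commute.refl X)
    have he : (1 + X) * ↑w⁻¹ - 1 = (2 : F) • (X * ↑w⁻¹) := by
      rw [show (1 + X) * ↑w⁻¹ - 1 = ((1 + X) - (↑w : Module.End F V)) * ↑w⁻¹ by rw [sub_mul, Units.mul_inv],
        hw, ← smul_mul_assoc, two_smul]
      congr 1
      abel
    rw [he, smul_pow, hcx.mul_pow, hX, zero_mul, smul_zero]

variable {V' : Type*} [AddCommGroup V'] [Module F V']

theorem IsCayley.equivariant {u X : Module.End F V} {u' X' : Module.End F V'} (h : IsCayley u X)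
    (h' : IsCayley u' X') (hu : IsUnit (u + 1)) (φ : V →ₗ[F] V') (hφ : ∀ v, φ (u v) = u' (φ v)) :
    ∀ v, φ (X v) = X' (φ v) := by
  obtain ⟨w, hw⟩ := hu
  intro v
  obtain ⟨a, ha⟩ : ∃ a, (u + 1) a = v := ⟨(↑w⁻¹ : Module.End F V) v, by
    rw [← hw, ← Module.End.mul_apply, Units.mul_inv, Module.End.one_apply]⟩
  subst ha
  have e1 : X ((u + 1) a) = (u - 1) a := LinearMap.congr_fun h a
  have e2 : X' ((u' + 1) (φ a)) = (u' - 1) (φ a) := LinearMap.congr_fun h' (φ a)
  rw [e1, LinearMap.add_apply, Module.End.one_apply, map_add φ, hφ]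
  simp only [LinearMap.sub_apply, LinearMap.add_apply, Module.End.one_apply] at e2
  rw [e2]
  simp [hφ]

theorem IsCayley.equivariant_symm {u X : Module.End F V} {u' X' : Module.End F V'} (h : IsCayley u X)
    (h' : IsCayley u' X') (hX : IsNilpotent X') (φ : V →ₗ[F] V') (hφ : ∀ v, φ (X v) = X' (φ v)) :
    ∀ v, φ (u v) = u' (φ v) := by
  intro v
  have e1 : X (u v + v) = u v - v := LinearMap.congr_fun h v
  have e2 : X' (u' (φ v) + φ v) = u' (φ v) - φ v := LinearMap.congr_fun h' (φ v)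
  have e3 : X' (φ (u v + v)) = φ (u v - v) := by rw [← hφ, e1]
  simp only [map_add, map_sub] at e2 e3
  have hzfix : X' (φ (u v) - u' (φ v)) = φ (u v) - u' (φ v) := by
    rw [map_sub]
    linear_combination (norm := abel) e3 - e2
  have hfix : ∀ k, (X' ^ k) (φ (u v) - u' (φ v)) = φ (u v) - u' (φ v) := by
    intro k
    induction k with
    | zero => simp
    | succ k ih => rw [pow_succ, Module.End.mul_apply, hzfix, ih]
  obtain ⟨n, hn⟩ := hX
  have h0 := hfix n
  rw [hn, LinearMap.zero_apply] at h0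
  exact sub_eq_zero.1 h0.symm

end CfsgLib.Classical.SympUnipotent
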