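import Cfsg.Agent.Classical.SympUnipotent.Invariant

/-!
Configurations and signed partitions.
-/

set_option autoImplicit false

namespace CfsgLib.Classical.SympUnipotent

open Module

variable {F : Type*} [Field F] {V : Type*} [AddCommGroup V] [Module F V]
  {B : LinearMap.BilinForm F V} {X : Module.End F V}
  {ι : Type} [Fintype ι] [DecidableEq ι] {t : ι → ℕ × Bool} {x : (i : ι) → Fin (sz (t i).1) → V}
  {d : F}

/-- Pieces of the standard configuration of a signed partition. -/
abbrev StdIdx (s : Multiset ℕ) := Σ jj : {j // j ∈ s.toFinset}, Fin (s.count jj.1 / sz jj.1)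

/-- The standard configuration of a signed partition. -/
def std (s : Multiset ℕ) (T : Finset ℕ) (i : StdIdx s) : ℕ × Bool :=
  (i.1.1, decide ((i.2 : ℕ) = 0 ∧ i.1.1 ∈ T))

/-- Multiplicities of the parts at which `T` may sit. -/
def Good (s : Multiset ℕ) (T : Finset ℕ) : Prop :=
  (∀ j ∈ T, j ∈ s ∧ Even j) ∧ ∀ j, Odd j → Even (s.count j)

theorem sz_dvd_count {s : Multiset ℕ} {T : Finset ℕ} (h : Good s T) (j : ℕ) : sz j ∣ s.count j := by
  rcases Nat.even_or_odd j with he | ho
  · rw [sz_even he]; exact one_dvd _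
  · rw [sz_odd ho]; exact (h.2 j ho).two_dvd

theorem card_std (s : Multiset ℕ) (T : Finset ℕ) (j : ℕ) :
    Fintype.card {i : StdIdx s // (std s T i).1 = j} = s.count j / sz j := by
  by_cases hj : j ∈ s
  · rw [← Fintype.card_fin (s.count j / sz j)]
    refine Fintype.card_congr
      { toFun := fun i => Fin.cast (by rw [show i.1.1.1 = j from i.2]) i.1.2
        invFun := fun r => ⟨⟨⟨j, Multiset.mem_toFinset.2 hj⟩, r⟩, rfl⟩
        left_inv := ?_
        right_inv := fun r => Fin.ext rfl }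
    rintro ⟨⟨⟨j', hj'⟩, r⟩, hh⟩
    obtain rfl : j' = j := hh
    rfl
  · rw [Multiset.count_eq_zero_of_notMem hj, Nat.zero_div, Fintype.card_eq_zero_iff]
    exact ⟨fun ⟨i, hi⟩ => hj (by rw [← hi]; exact Multiset.mem_toFinset.1 i.1.2)⟩

theorem std_ok {s : Multiset ℕ} {T : Finset ℕ} (h : Good s T) : Ok (std s T) := by
  intro i hi
  simp only [std, decide_eq_true_eq] at hi
  refine ⟨(h.1 _ hi.2).2, ?_⟩
  rintro ⟨⟨j', hj'⟩, r'⟩ e
  obtain ⟨⟨j, hj⟩, r⟩ := i
  simp only [std, Prod.mk.injEq] at e hi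
  obtain ⟨rfl, e2⟩ := e
  have h0 : (r' : ℕ) = 0 := by
    have : decide ((r' : ℕ) = 0 ∧ j' ∈ T) = true := e2.trans (decide_eq_true hi)
    exact (of_decide_eq_true this).1
  simp only [Sigma.mk.injEq, heq_eq_eq, true_and]
  exact Fin.ext (h0.trans hi.1.symm)

theorem cnt_std_true {s : Multiset ℕ} {T : Finset ℕ} (h : Good s T) (j : ℕ) :
    cnt (std s T) (j, true) = if j ∈ T then 1 else 0 := by
  split_ifs with hj
  · refine le_antisymm (cnt_true_le (std_ok h) j) (Fintype.card_pos_iff.2 ?_)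
    have hm := (h.1 j hj).1
    have hpos : 0 < s.count j / sz j := by
      rw [sz_even (h.1 j hj).2, Nat.div_one]; exact Multiset.count_pos.2 hm
    exact ⟨⟨⟨⟨j, Multiset.mem_toFinset.2 hm⟩, ⟨0, hpos⟩⟩, by simp [std, hj]⟩⟩
  · rw [cnt, Fintype.card_eq_zero_iff]
    refine ⟨fun ⟨i, hi⟩ => ?_⟩
    simp only [std, Prod.mk.injEq, decide_eq_true_eq] at hi
    exact hj (hi.1 ▸ hi.2.2)

/-- Jordan block sizes of a configuration. -/
def parts (t : ι → ℕ × Bool) : Multiset ℕ := ∑ i, Multiset.replicate (sz (t i).1) (t i).1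

theorem count_parts (t : ι → ℕ × Bool) (j : ℕ) :
    (parts t).count j = Fintype.card {i // (t i).1 = j} * sz j := by
  rw [parts, Multiset.count_sum', Fintype.card_subtype, Finset.card_filter, Finset.sum_mul]
  refine Finset.sum_congr rfl fun i _ => ?_
  rw [Multiset.count_replicate]
  split_ifs with h <;> simp [h]

theorem sum_parts (t : ι → ℕ × Bool) : (parts t).sum = ∑ i, sz (t i).1 * (t i).1 := by
  rw [parts, Multiset.sum_sum]
  simp

/-- The signed parts of a configuration. -/
def flags (t : ι → ℕ × Bool) : Finset ℕ := (parts t).toFinset.filter fun j => cnt t (j, true) = 1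

theorem good_flags (hok : Ok t) : Good (parts t) (flags t) := by
  refine ⟨fun j hj => ?_, fun j hj => ?_⟩
  · rw [flags, Finset.mem_filter, Multiset.mem_toFinset] at hj
    refine ⟨hj.1, Nat.not_odd_iff_even.1 fun ho => ?_⟩
    rw [cnt_true_odd hok ho] at hj
    exact absurd hj.2 (by norm_num)
  · rw [count_parts, sz_odd hj]
    exact even_two.mul_left _

theorem cnt_flags (hok : Ok t) (v : ℕ × Bool) : cnt (std (parts t) (flags t)) v = cnt t v := by
  obtain ⟨j, b⟩ := v
  have htrue : cnt (std (parts t) (flags t)) (j, true) = cnt t (j, true) := by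
    rw [cnt_std_true (good_flags hok)]
    have h1 := cnt_true_le hok j
    have h2 := cnt_add t j
    split_ifs with hj
    · rw [flags, Finset.mem_filter] at hj; exact hj.2.symm
    · by_contra hne
      apply hj
      have h3 : cnt t (j, true) = 1 := by omega
      rw [flags, Finset.mem_filter, Multiset.mem_toFinset, ← Multiset.count_pos, count_parts]
      exact ⟨Nat.mul_pos (by omega) (sz_pos j), h3⟩
  cases b
  · have e1 := cnt_add (std (parts t) (flags t)) j
    rw [card_std, count_parts, Nat.mul_div_cancel _ (sz_pos j)] at e1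
    have e2 := cnt_add t j
    omega
  · exact htrue

theorem exists_reindex {ι' : Type} [Fintype ι'] [DecidableEq ι'] {t' : ι' → ℕ × Bool} (h : IsNF t x B X d ⊤)
    (hc : ∀ v, cnt t' v = cnt t v) : ∃ x' : (i : ι') → Fin (sz (t' i).1) → V, IsNF t' x' B X d ⊤ := by
  suffices key : ∀ e : ι' ≃ ι, t' = t ∘ e →
      ∃ x' : (i : ι') → Fin (sz (t' i).1) → V, IsNF t' x' B X d ⊤ from
    key (Equiv.ofFiberEquiv fun v => Fintype.equivOfCardEq (hc v))
      (funext fun i => (Equiv.ofFiberEquiv_map _ i).symm)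
  clear hc
  rintro e rfl
  refine ⟨fun i => x (e i), fun i => h.pos (e i), fun _ _ => trivial, fun i a => h.kill (e i) a,
    fun i i' a b m => (h.pair (e i) (e i') a b m).trans (by simp), fun v hv => ?_⟩
  refine Submodule.span_mono ?_ (h.span_le hv)
  rintro _ ⟨⟨i, a, l⟩, rfl⟩
  obtain ⟨i₀, rfl⟩ := e.surjective i
  exact ⟨⟨i₀, a, l⟩, rfl⟩

end CfsgLib.Classical.SympUnipotent
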