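import Cfsg.Agent.Classical.SympUnipotent.Basic
import Cfsg.Agent.Jordan.IsometryTypes

/-!
Realisation of every configuration in the standard symplectic space.
-/

set_option autoImplicit false

namespace CfsgLib.Classical.SympUnipotent

open Module CfsgLib.Jordan.IsometryTypes

variable {F : Type*} [Field F] {ι : Type} [Fintype ι] [DecidableEq ι] (t : ι → ℕ × Bool) (d : F)

theorem gv_flip (j : ℕ) (s : Bool) (a b : ℕ) : gv d (j, s) b a = (-1) ^ j * gv d (j, s) a b := by
  unfold gv
  rcases Nat.even_or_odd j with he | ho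
  · simp only [if_pos he, he.neg_one_pow, one_mul]
  · simp only [if_neg (Nat.not_even_iff_odd.2 ho), ho.neg_one_pow]
    rcases lt_trichotomy a b with h | rfl | h
    · simp [h, not_lt.2 h.le]
    · simp
    · simp [h, not_lt.2 h.le]

/-- The matrix of pairings of the chains. -/
def modelMat : Matrix (Idx t) (Idx t) F := Matrix.of fun s r =>
  if s.1 = r.1 ∧ (s.2.2 : ℕ) + r.2.2 + 1 = (t s.1).1 then (-1) ^ (s.2.2 : ℕ) * gv d (t s.1) s.2.1 r.2.1 else 0

theorem modelMat_flip (s r : Idx t) : modelMat t d r s = -modelMat t d s r := by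
  obtain ⟨i, a, l⟩ := s
  obtain ⟨i', b, l'⟩ := r
  simp only [modelMat, Matrix.of_apply]
  by_cases h : i = i' ∧ (l : ℕ) + l' + 1 = (t i).1
  · obtain ⟨rfl, h⟩ := h
    rw [if_pos ⟨rfl, by omega⟩, if_pos ⟨rfl, h⟩]
    have hflip := gv_flip d (t i).1 (t i).2 a b
    simp only [Prod.mk.eta] at hflip
    rw [hflip, show (-1 : F) ^ (t i).1 = -((-1) ^ (l : ℕ) * (-1) ^ (l' : ℕ)) by
      rw [show (-1 : F) ^ (t i).1 = (-1) ^ ((l : ℕ) + l' + 1) from congrArg _ h.symm, pow_succ, pow_add]; ring]
    have h3 : (-1 : F) ^ (l' : ℕ) * (-1) ^ (l' : ℕ) = 1 := by rw [← mul_pow]; simp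
    linear_combination ((-1 : F) ^ (l : ℕ) * gv d (t i) a b * -1) * h3
  · rw [if_neg h, if_neg, neg_zero]
    rintro ⟨rfl, h'⟩
    exact h ⟨rfl, by omega⟩

/-- The form of the model. -/
noncomputable def modelForm : LinearMap.BilinForm F (Idx t → F) := Matrix.toBilin' (modelMat t d)

theorem modelForm_basis (s r : Idx t) :
    modelForm t d (Pi.basisFun F _ s) (Pi.basisFun F _ r) = modelMat t d s r := by
  simp [modelForm, Pi.basisFun_apply, Matrix.toBilin'_single]

/-- The endomorphism of the model. -/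
noncomputable def modelEnd : Module.End F (Idx t → F) :=
  (Pi.basisFun F (Idx t)).constr F fun s => if hl : (s.2.2 : ℕ) + 1 < (t s.1).1 then
    Pi.basisFun F _ ⟨s.1, s.2.1, ⟨s.2.2 + 1, hl⟩⟩ else 0

theorem modelForm_alt (h2 : (2 : F) ≠ 0) : (modelForm t d).IsAlt := by
  have key : (modelForm t d).flip = -(modelForm t d) :=
    LinearMap.BilinForm.ext_basis (Pi.basisFun F _) fun s r => by
      simp [LinearMap.BilinForm.flip_apply, modelForm, Pi.basisFun_apply, Matrix.toBilin'_single, modelMat_flip t d s r]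
  intro v
  have h1 := LinearMap.congr_fun₂ key v v
  simp only [LinearMap.BilinForm.flip_apply, LinearMap.neg_apply] at h1
  exact (mul_eq_zero.1 (show (2 : F) * modelForm t d v v = 0 by linear_combination h1)).resolve_left h2

theorem model_skew (h2 : (2 : F) ≠ 0) : Skew (modelForm t d) (modelEnd t) := by
  refine ⟨modelForm_alt t d h2, fun v w => ?_⟩
  refine LinearMap.congr_fun₂ (f := (modelForm t d).comp (modelEnd t) LinearMap.id)
    (g := -((modelForm t d).comp LinearMap.id (modelEnd t))) ?_ v w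
  refine LinearMap.BilinForm.ext_basis (Pi.basisFun F _) fun s r => ?_
  simp only [LinearMap.BilinForm.comp_apply, LinearMap.neg_apply, LinearMap.id_apply, modelEnd, Basis.constr_basis]
  obtain ⟨i, a, l⟩ := s
  obtain ⟨i', b, l'⟩ := r
  have hl := l.2
  have hl' := l'.2
  by_cases h1 : (l : ℕ) + 1 < (t i).1 <;> by_cases h3 : (l' : ℕ) + 1 < (t i').1 <;>
    simp only [dif_pos, h1, h3, dif_neg, not_false_iff, map_zero, LinearMap.zero_apply, neg_zero, modelForm_basis] <;>
    simp only [modelMat, Matrix.of_apply]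
  · by_cases h4 : i = i' ∧ (l : ℕ) + l' + 2 = (t i).1
    · obtain ⟨rfl, h4⟩ := h4
      rw [if_pos ⟨rfl, by omega⟩, if_pos ⟨rfl, by omega⟩, pow_succ]
      ring
    · rw [if_neg (fun e => h4 ⟨e.1, by omega⟩), if_neg (fun e => h4 ⟨e.1, by omega⟩), neg_zero]
  · rw [if_neg]
    rintro ⟨rfl, h5⟩; omega
  · rw [if_neg, neg_zero]
    rintro ⟨rfl, h5⟩; omega

/-- The heads of the chains of the model. -/
noncomputable def modelHead (hpos : ∀ i, 1 ≤ (t i).1) (i : ι) (a : Fin (sz (t i).1)) : Idx t → F :=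
  Pi.basisFun F (Idx t) ⟨i, a, ⟨0, hpos i⟩⟩

theorem model_chain (hpos : ∀ i, 1 ≤ (t i).1) (i : ι) (a : Fin (sz (t i).1)) : ∀ (l : ℕ) (hl : l < (t i).1),
    ((modelEnd t : Module.End F (Idx t → F)) ^ l) (modelHead t hpos i a) = Pi.basisFun F (Idx t) ⟨i, a, ⟨l, hl⟩⟩
  | 0, _ => by simp [modelHead]
  | l + 1, hl => by
    rw [pow_succ', Module.End.mul_apply, model_chain hpos i a l (by omega), modelEnd, Basis.constr_basis,
      dif_pos (show ((⟨l, by omega⟩ : Fin (t i).1) : ℕ) + 1 < (t i).1 from hl)]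

theorem model_kill (hpos : ∀ i, 1 ≤ (t i).1) (i : ι) (a : Fin (sz (t i).1)) :
    ((modelEnd t : Module.End F (Idx t → F)) ^ (t i).1) (modelHead t hpos i a) = 0 := by
  have h1 := hpos i
  rw [show (t i).1 = ((t i).1 - 1) + 1 by omega, pow_succ', Module.End.mul_apply,
    model_chain t hpos i a _ (by omega), modelEnd, Basis.constr_basis, dif_neg]
  simp only
  omega

theorem model_isNF (hpos : ∀ i, 1 ≤ (t i).1) :
    IsNF t (modelHead t hpos) (modelForm t d) (modelEnd t) d ⊤ := by
  refine ⟨hpos, fun _ _ => trivial, model_kill t hpos, fun i i' a b m => ?_, ?_⟩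
  · by_cases hm : m < (t i').1
    · rw [model_chain t hpos i' b m hm, modelHead, modelForm_basis]
      simp only [modelMat, Matrix.of_apply, Nat.zero_add, pow_zero, one_mul]
    · have hz : ((modelEnd t : Module.End F (Idx t → F)) ^ m) (modelHead t hpos i' b) = 0 := by
        rw [show m = (m - (t i').1) + (t i').1 by omega, pow_add, Module.End.mul_apply, model_kill, map_zero]
      rw [hz, map_zero, if_neg]
      rintro ⟨rfl, h⟩; omega
  · rw [← (Pi.basisFun F (Idx t)).span_eq]
    refine Submodule.span_mono ?_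
    rintro _ ⟨⟨i, a, l⟩, rfl⟩
    exact ⟨⟨i, a, l⟩, model_chain t hpos i a l l.2⟩

variable {t d}

theorem IsNF.map {V : Type*} [AddCommGroup V] [Module F V] {V' : Type*} [AddCommGroup V'] [Module F V']
    {B : LinearMap.BilinForm F V} {X : Module.End F V} {x : (i : ι) → Fin (sz (t i).1) → V}
    (h : IsNF t x B X d ⊤) (hs : Skew B X) (L : V ≃ₗ[F] V') (B' : LinearMap.BilinForm F V')
    (hL : ∀ v w, B' (L v) (L w) = B v w) :
    Skew B' (L.conj X) ∧ IsNF t (fun i a => L (x i a)) B' (L.conj X) d ⊤ := by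
  have hpow : ∀ (m : ℕ) (v : V), ((L.conj X) ^ m) (L v) = L ((X ^ m) v) := by
    intro m
    induction m with
    | zero => simp
    | succ m ih =>
      intro v
      rw [pow_succ', pow_succ', Module.End.mul_apply, Module.End.mul_apply, ih]
      simp [LinearEquiv.conj_apply]
  refine ⟨⟨fun v => ?_, fun v w => ?_⟩, ⟨h.pos, fun _ _ => trivial, fun i a => ?_, fun i i' a b m => ?_, ?_⟩⟩
  · rw [← L.apply_symm_apply v, hL]; exact hs.alt _
  · rw [← L.apply_symm_apply v, ← L.apply_symm_apply w]
    simp only [LinearEquiv.conj_apply, LinearMap.comp_apply, LinearEquiv.coe_coe, LinearEquiv.symm_apply_apply, hL]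
    exact hs.skew _ _
  · rw [hpow, h.kill, map_zero]
  · rw [hpow, hL, h.pair]
  · intro v _
    have hch : chain t (fun i a => L (x i a)) (L.conj X) = L.toLinearMap ∘ chain t x X :=
      funext fun s => hpow _ _
    rw [hch, Set.range_comp, ← Submodule.map_span, ← L.apply_symm_apply v]
    exact ⟨_, h.span_le trivial, rfl⟩

/-- Every configuration occurs in the standard symplectic space of the right dimension. -/
theorem exists_model (h2 : (2 : F) ≠ 0) (hd : d ≠ 0) (hpos : ∀ i, 1 ≤ (t i).1) {m : ℕ}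
    (hsum : ∑ i, sz (t i).1 * (t i).1 = 2 * m) :
    ∃ (X : Module.End F (Fin m ⊕ Fin m → F)) (x : (i : ι) → Fin (sz (t i).1) → (Fin m ⊕ Fin m → F)),
      Skew (sympBil m F) X ∧ IsNF t x (sympBil m F) X d ⊤ := by
  have hs := model_skew t d h2
  have hnf := model_isNF t d hpos
  obtain ⟨m', b, hm', hef, hee, hff⟩ := CfsgLib.LinAlg.Witt.exists_symplectic_basis (modelForm t d) hs.alt (by
    rw [Submodule.eq_bot_iff]
    intro v hv
    rw [← (hnf.basis hs hd).sum_repr v]
    refine Finset.sum_eq_zero fun ⟨i, a, l⟩ _ => ?_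
    rw [hnf.coef_zero hs hd (fun s => (hnf.basis hs hd).repr v s) i l (fun b => ?_) a, zero_smul]
    rw [show ∑ s, (hnf.basis hs hd).repr v s • chain t (modelHead t hpos) (modelEnd t) s = v by
      simp only [← hnf.basis_apply hs hd]; exact (hnf.basis hs hd).sum_repr v]
    exact LinearMap.congr_fun (LinearMap.mem_ker.1 hv) _)
  have hdim : finrank F (Idx t → F) = 2 * m := by
    rw [finrank_pi, Fintype.card_sigma, ← hsum]
    simp
  obtain rfl : m' = m := by omega
  let L : (Idx t → F) ≃ₗ[F] (Fin m' ⊕ Fin m' → F) := b.equiv (Pi.basisFun F _) (Equiv.sumComm _ _)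
  have hL : ∀ x y, sympBil m' F (L x) (L y) = modelForm t d x y := by
    have key : (sympBil m' F).comp L.toLinearMap L.toLinearMap = modelForm t d := by
      refine LinearMap.BilinForm.ext_basis b fun i j => ?_
      show Cfsg.sympForm m' F (L (b i)) (L (b j)) = _
      rcases i with i | i <;> rcases j with j | j <;>
        simp only [L, Basis.equiv_apply, Pi.basisFun_apply, Equiv.sumComm_apply, Sum.swap_inl, Sum.swap_inr]
      · rw [hee]; exact Classical.Symp.form_stdE_stdE i j
      · rw [hef]; exact Classical.Symp.form_stdE_stdF i j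
      · rw [← LinearMap.IsAlt.neg hs.alt, hef]
        refine (Classical.Symp.form_stdF_stdE i j).trans ?_
        simp only [eq_comm (a := i)]
        split_ifs <;> simp
      · rw [hff]; exact Classical.Symp.form_stdF_stdF i j
    exact fun x y => LinearMap.congr_fun₂ key x y
  obtain ⟨h1, h3⟩ := hnf.map hs L (sympBil m' F) hL
  exact ⟨_, _, h1, h3⟩

end CfsgLib.Classical.SympUnipotent
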