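import Cfsg.Agent.Classical.SympUnipotent.Config
import Cfsg.Agent.Classical.SympUnipotent.Model
import Cfsg.Agent.Classical.SympUnipotent.Cayley

/-!
Counting the classes of elements of order dividing `p` in `Sp(2m, F)`, `p` the odd characteristic.
-/

set_option autoImplicit false

namespace CfsgLib.Classical.SympUnipotent

open Module Polynomial CfsgLib.Jordan.IsometryTypes

variable {F : Type*} [Field F] {m : ℕ}

set_option quotPrecheck false in
local notation "Gp" => ↥(Matrix.symplecticGroup (Fin m) F)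

/-- The action of a group element. -/
noncomputable def act (g : Gp) : Module.End F (Fin m ⊕ Fin m → F) :=
  Matrix.toLinAlgEquiv' (g : Matrix (Fin m ⊕ Fin m) (Fin m ⊕ Fin m) F)

theorem act_mul (g h : Gp) : act (g * h) = act g * act h := map_mul _ _ _
theorem act_one : act (1 : Gp) = 1 := map_one _
theorem act_pow (g : Gp) (n : ℕ) : act (g ^ n) = act g ^ n := map_pow _ _ _

theorem act_inj {g h : Gp} (e : act g = act h) : g = h :=
  Subtype.ext (Matrix.toLinAlgEquiv'.injective e)

theorem act_iso (g : Gp) (x y : Fin m ⊕ Fin m → F) :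
    sympBil m F (act g x) (act g y) = sympBil m F x y :=
  ((Classical.Symp.mem_symplecticGroup_iff_form _).1 g.2) x y

theorem exists_act (u : Module.End F (Fin m ⊕ Fin m → F))
    (hu : ∀ x y, sympBil m F (u x) (u y) = sympBil m F x y) : ∃ g : Gp, act g = u := by
  refine ⟨⟨Matrix.toLinAlgEquiv'.symm u, (Classical.Symp.mem_symplecticGroup_iff_form _).2 fun x y => ?_⟩,
    AlgEquiv.apply_symm_apply _ _⟩
  have key : ∀ z, Matrix.mulVec (Matrix.toLinAlgEquiv'.symm u) z = u z := fun z => by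
    rw [← Matrix.toLinAlgEquiv'_apply, AlgEquiv.apply_symm_apply]
  rw [key, key]
  exact hu x y

theorem sub_one_pow (p : ℕ) [Fact p.Prime] [CharP F p] {V : Type*} [AddCommGroup V] [Module F V]
    (u : Module.End F V) : (u - 1) ^ p = u ^ p - 1 := by
  have h := congrArg (aeval (R := F) u) (sub_pow_char (R := F[X]) (p := p) (X : F[X]) 1)
  simpa using h

theorem isConj_iff_exists (g h : Gp) :
    IsConj g h ↔ ∃ φ : (Fin m ⊕ Fin m → F) ≃ₗ[F] (Fin m ⊕ Fin m → F),
      (∀ v, φ (act g v) = act h (φ v)) ∧ ∀ v w, sympBil m F (φ v) (φ w) = sympBil m F v w := by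
  constructor
  · intro hc
    obtain ⟨c, hc⟩ := isConj_iff.1 hc
    have hcc : act c * act c⁻¹ = 1 := by rw [← act_mul, mul_inv_cancel, act_one]
    have hcc' : act c⁻¹ * act c = 1 := by rw [← act_mul, inv_mul_cancel, act_one]
    refine ⟨LinearEquiv.ofLinearMap (act c) (act c⁻¹) hcc hcc', fun v => ?_, fun v w => act_iso c v w⟩
    have e : act c * act g = act h * act c := by
      rw [← act_mul, ← act_mul, ← hc, inv_mul_cancel_right]
    exact LinearMap.congr_fun e v
  · rintro ⟨φ, hφ, hφi⟩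
    obtain ⟨c, hc⟩ := exists_act φ.toLinearMap hφi
    refine isConj_iff.2 ⟨c, ?_⟩
    have e : c * g = h * c := act_inj (by
      rw [act_mul, act_mul, hc]
      exact LinearMap.ext hφ)
    rw [e, mul_inv_cancel_right]

theorem parts_pos {ι : Type} [Fintype ι] {t : ι → ℕ × Bool} {j : ℕ} (hj : j ∈ parts t) : ∃ i, (t i).1 = j := by
  obtain ⟨i, -, hi⟩ := Multiset.mem_sum.1 hj
  exact ⟨i, (Multiset.eq_of_mem_replicate hi).symm⟩

theorem count_std {s : Multiset ℕ} {T : Finset ℕ} (hgood : Good s T) :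
    ∑ i : StdIdx s, sz (std s T i).1 * (std s T i).1 = s.sum := by
  rw [Fintype.sum_sigma, Finset.sum_multiset_count, ← Finset.sum_coe_sort s.toFinset]
  refine Finset.sum_congr rfl fun jj _ => ?_
  simp only [std, Finset.sum_const, Finset.card_univ, Fintype.card_fin, smul_eq_mul]
  rw [← Nat.mul_assoc, Nat.div_mul_cancel (sz_dvd_count hgood _)]

open scoped _root_.Classical in
/-- Elements of order dividing `p` correspond to signed partitions. -/
theorem card_classes [Fintype F] {p : ℕ} [Fact p.Prime] [CharP F p] (hp : p ≠ 2) :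
    Nat.card {C : ConjClasses ↥(Matrix.symplecticGroup (Fin m) F) //
        ∃ g : Matrix.symplecticGroup (Fin m) F, ConjClasses.mk g = C ∧ g ^ p = 1} =
      ∑ μ ∈ Finset.univ.filter (fun μ : Nat.Partition (2 * m) =>
        (∀ a ∈ μ.parts, a ≤ p) ∧ ∀ j : ℕ, Odd j → Even (μ.parts.count j)),
        2 ^ ((μ.parts.toFinset.filter (fun j : ℕ => Even j)).card) := by
  classical
  have hchar : ringChar F = p := ringChar.eq F p
  have hF : ringChar F ≠ 2 := hchar ▸ hp
  have h2 : (2 : F) ≠ 0 := Ring.two_ne_zero hF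
  obtain ⟨d, hd⟩ := FiniteField.exists_nonsquare hF
  have hd0 : d ≠ 0 := fun e => hd (e ▸ IsSquare.zero)
  set A := Finset.univ.filter (fun μ : Nat.Partition (2 * m) =>
    (∀ a ∈ μ.parts, a ≤ p) ∧ ∀ j : ℕ, Odd j → Even (μ.parts.count j))
  set P := A.sigma (fun μ : Nat.Partition (2 * m) => (μ.parts.toFinset.filter (fun j : ℕ => Even j)).powerset)
  have hgood : ∀ q ∈ P, Good q.1.parts q.2 := by
    intro q hq
    simp only [P, A, Finset.mem_sigma, Finset.mem_filter, Finset.mem_powerset] at hq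
    exact ⟨fun j hj => ⟨Multiset.mem_toFinset.1 (Finset.mem_filter.1 (hq.2 hj)).1,
      (Finset.mem_filter.1 (hq.2 hj)).2⟩, hq.1.2.2⟩
  have real : ∀ q : {q // q ∈ P}, ∃ (g : Gp) (X : Module.End F (Fin m ⊕ Fin m → F))
      (x : (i : StdIdx q.1.1.parts) → Fin (sz (std q.1.1.parts q.1.2 i).1) → (Fin m ⊕ Fin m → F)),
      g ^ p = 1 ∧ IsCayley (act g) X ∧ Skew (sympBil m F) X ∧ X ^ p = 0 ∧
        IsNF (std q.1.1.parts q.1.2) x (sympBil m F) X d ⊤ := by
    rintro ⟨⟨μ, T⟩, hq⟩
    have hpos : ∀ i : StdIdx μ.parts, 1 ≤ (std μ.parts T i).1 := fun i =>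
      μ.parts_pos (Multiset.mem_toFinset.1 i.1.2)
    obtain ⟨X, x, hs, hnf⟩ := exists_model (d := d) h2 hd0 hpos (m := m)
      (by rw [count_std (hgood _ hq)]; exact μ.parts_sum)
    have hXp : X ^ p = 0 := by
      refine (hnf.basis hs hd0).ext fun ⟨i, a, l⟩ => ?_
      rw [IsNF.basis_apply, chain, ← Module.End.mul_apply, ← pow_add, LinearMap.zero_apply]
      have hle : (std μ.parts T i).1 ≤ p := by
        simp only [P, A, Finset.mem_sigma, Finset.mem_filter] at hq
        exact hq.1.2.1 _ (Multiset.mem_toFinset.1 i.1.2)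
      exact pow_kill (hnf.kill i a) (by omega)
    obtain ⟨u, hu, hiso, hup⟩ := exists_of_skew h2 hs hXp
    obtain ⟨g, rfl⟩ := exists_act u hiso
    refine ⟨g, X, x, act_inj ?_, hu, hs, hXp, hnf⟩
    rw [act_pow, act_one]
    rwa [sub_one_pow, sub_eq_zero] at hup
  choose g X x hgp hcay hskew hXp hnf using real
  let f : {q // q ∈ P} → {C : ConjClasses Gp // ∃ g : Gp, ConjClasses.mk g = C ∧ g ^ p = 1} :=
    fun q => ⟨ConjClasses.mk (g q), g q, rfl, hgp q⟩
  have hinj : Function.Injective f := by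
    intro q q' e
    obtain ⟨φ, hφ, hφi⟩ := (isConj_iff_exists _ _).1 (ConjClasses.mk_eq_mk_iff_isConj.1 (congrArg Subtype.val e))
    have hn : IsNilpotent (act (g q) - 1) := ⟨p, by
      rw [sub_one_pow, ← act_pow, hgp, act_one, sub_self]⟩
    have hX : ∀ v, φ (X q v) = X q' (φ v) :=
      (hcay q).equivariant (hcay q') (isUnit_add_one h2 hn) φ.toLinearMap hφ
    have hg1 := hgood _ q.2
    have hg2 := hgood _ q'.2
    have hc := cnt_eq (hnf q) (hnf q') (hskew q) (hskew q') (std_ok hg1) (std_ok hg2) hd φ hX hφi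
    have hT : q.1.2 = q'.1.2 := by
      ext j
      have := hc (j, true)
      rw [cnt_std_true hg1, cnt_std_true hg2] at this
      split_ifs at this with h1 h3 h3 <;> simp_all
    have hμ : q.1.1 = q'.1.1 := by
      refine Nat.Partition.ext (Multiset.ext.2 fun j => ?_)
      have e1 := cnt_add (std q.1.1.parts q.1.2) j
      have e2 := cnt_add (std q'.1.1.parts q'.1.2) j
      rw [card_std, hc, hc, e2, card_std] at e1
      have e3 := congrArg (· * sz j) e1
      simp only [Nat.div_mul_cancel (sz_dvd_count hg1 j), Nat.div_mul_cancel (sz_dvd_count hg2 j)] at e3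
      exact e3.symm
    obtain ⟨⟨μ, T⟩, hq⟩ := q
    obtain ⟨⟨μ', T'⟩, hq'⟩ := q'
    simp only at hT hμ
    subst hT hμ
    rfl
  have hsurj : Function.Surjective f := by
    rintro ⟨C, h, rfl, hh⟩
    have hu : (act h - 1) ^ p = 0 := by rw [sub_one_pow, ← act_pow, hh, act_one, sub_self]
    obtain ⟨Y, hY, hYs, hYp⟩ := exists_cayley h2 (sympBil_alt m) hu (act_iso h)
    obtain ⟨ι, _, _, t, y, hy, hok, -⟩ := exists_nf hF hYs ⟨p, hYp⟩ hd (U := ⊤)
      (fun z _ hz => (sympBil_nondeg m).1 z fun w => hz w trivial) le_top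
    have hsum : (parts t).sum = 2 * m := by
      have h1 := Module.finrank_eq_card_basis (hy.basis hYs hd0)
      rw [Module.finrank_pi, Fintype.card_sum, Fintype.card_fin, Fintype.card_sigma] at h1
      rw [sum_parts, show 2 * m = m + m by ring, h1]
      simp
    have hgd := good_flags hok
    let μ : Nat.Partition (2 * m) := ⟨parts t, fun {j} hj => by
      obtain ⟨i, rfl⟩ := parts_pos hj; exact hy.pos i, hsum⟩
    have hμA : μ ∈ A := by
      simp only [A, Finset.mem_filter, Finset.mem_univ, true_and]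
      refine ⟨fun a ha => ?_, hgd.2⟩
      obtain ⟨i, rfl⟩ := parts_pos ha
      by_contra hlt
      refine (hy.linearIndependent hYs hd0).ne_zero ⟨i, ⟨0, sz_pos _⟩, ⟨p, by omega⟩⟩ ?_
      simp [chain, hYp]
    have hq : (⟨μ, flags t⟩ : (μ : Nat.Partition (2 * m)) × Finset ℕ) ∈ P := by
      simp only [P, Finset.mem_sigma, Finset.mem_powerset]
      exact ⟨hμA, fun j hj => Finset.mem_filter.2 ⟨(Finset.mem_filter.1 hj).1, (hgd.1 j hj).2⟩⟩
    refine ⟨⟨_, hq⟩, Subtype.ext (ConjClasses.mk_eq_mk_iff_isConj.2 ((isConj_iff_exists _ _).2 ?_))⟩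
    obtain ⟨y', hy'⟩ := exists_reindex hy (t' := std (parts t) (flags t)) (cnt_flags hok)
    obtain ⟨φ, hφ, hφi⟩ := (hnf ⟨_, hq⟩).exists_equiv hy' (hskew _) hYs hd0
    exact ⟨φ, (hcay _).equivariant_symm hY ⟨p, hYp⟩ φ.toLinearMap hφ, hφi⟩
  rw [← Nat.card_eq_of_bijective f ⟨hinj, hsurj⟩, Nat.card_eq_fintype_card, Fintype.card_coe]
  simp only [P, Finset.card_sigma, Finset.card_powerset]

end CfsgLib.Classical.SympUnipotent
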