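import Cfsg.Agent.Classical.SympUnipotent.Basic
import Cfsg.Agent.Classical.Semisimple.AltIsometry

/-!
Existence of normal forms of nilpotent skew endomorphisms over finite fields of odd order.
-/

set_option autoImplicit false

namespace CfsgLib.Classical.SympUnipotent

open Module CfsgLib.Classical.Semisimple CfsgLib.Classical.Semisimple.AltIsometry

variable {F : Type*} [Field F] {V : Type*} [AddCommGroup V] [Module F V]
  {B : LinearMap.BilinForm F V} {X : Module.End F V}

theorem pow_mem_inv {U : Submodule F V} (hU : U.map X ≤ U) :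
    ∀ (i : ℕ) {x : V}, x ∈ U → (X ^ i) x ∈ U := by
  intro i
  induction i with
  | zero => intro x hx; simpa using hx
  | succ i ih => intro x hx; rw [pow_succ', Module.End.mul_apply]; exact hU ⟨_, ih hx, rfl⟩

theorem pow_kill {j m : ℕ} {x : V} (h : (X ^ j) x = 0) (hm : j ≤ m) : (X ^ m) x = 0 := by
  rw [show m = (m - j) + j by omega, pow_add, Module.End.mul_apply, h, map_zero]

/-- Adjust chain heads so that only the top pairings survive. -/
theorem improve (h2 : (2 : F) ≠ 0) (hs : Skew B X) {U : Submodule F V} (hinv : U.map X ≤ U) {j k : ℕ}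
    (G : Matrix (Fin k) (Fin k) F) (hG : IsUnit G.det) (x : Fin k → V) (hxU : ∀ a, x a ∈ U)
    (hj : 1 ≤ j) (hxj : ∀ a, (X ^ j) (x a) = 0) (htop : ∀ a b, B (x a) ((X ^ (j - 1)) (x b)) = G a b) :
    ∃ y : Fin k → V, (∀ a, y a ∈ U) ∧ (∀ a, (X ^ j) (y a) = 0) ∧
      (∀ a b (m : ℕ), B (y a) ((X ^ m) (y b)) = if m + 1 = j then G a b else 0) := by
  classical
  suffices key : ∀ n, ∃ y : Fin k → V, (∀ a, y a ∈ U) ∧ (∀ a, (X ^ j) (y a) = 0) ∧
      (∀ a b, B (y a) ((X ^ (j - 1)) (y b)) = G a b) ∧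
      (∀ a b m, j - 1 - n ≤ m → m < j - 1 → B (y a) ((X ^ m) (y b)) = 0) by
    obtain ⟨y, h1, h3, h4, h5⟩ := key j
    refine ⟨y, h1, h3, fun a b m => ?_⟩
    split_ifs with hm
    · rw [show m = j - 1 by omega, h4]
    · rcases lt_or_ge m j with hlt | hge
      · exact h5 a b m (by omega) (by omega)
      · rw [pow_kill (h3 b) hge, map_zero]
  intro n
  induction n with
  | zero => exact ⟨x, hxU, hxj, htop, fun a b m h1 h3 => absurd h3 (by omega)⟩
  | succ n ih =>
    obtain ⟨y, hy, hyj, hyt, hyz⟩ := ih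
    by_cases hn : j - 1 ≤ n
    · exact ⟨y, hy, hyj, hyt, fun a b m h1 h3 => hyz a b m (by omega) h3⟩
    set e := n + 1 with he
    set m₀ := j - 1 - e with hm₀
    let M : Matrix (Fin k) (Fin k) F := Matrix.of fun a b => B (y a) ((X ^ m₀) (y b))
    let D : Matrix (Fin k) (Fin k) F := (-(-1 : F) ^ e / 2) • M
    let C : Matrix (Fin k) (Fin k) F := D * G⁻¹
    have hGT : G.transpose = (-1 : F) ^ j • G := by
      ext a b
      rw [Matrix.transpose_apply, Matrix.smul_apply, smul_eq_mul, ← hyt, hs.swap, hyt,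
        show (-1 : F) ^ j = -((-1) ^ (j - 1)) by
          rw [show j = (j - 1) + 1 by omega, pow_succ, show j - 1 + 1 - 1 = j - 1 by omega]; ring]
      ring
    have hMT : M.transpose = (-1 : F) ^ (m₀ + 1) • M := by
      ext a b
      rw [Matrix.transpose_apply, Matrix.smul_apply, smul_eq_mul]
      show B (y b) _ = _ * B (y a) _
      rw [hs.swap, pow_succ]
      ring
    have hCG : C * G = D := by rw [Matrix.mul_assoc, Matrix.nonsing_inv_mul G hG, Matrix.mul_one]
    have hGC : G * C.transpose = (-1 : F) ^ j • D.transpose := by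
      have h1 : (C * G).transpose = D.transpose := by rw [hCG]
      rw [Matrix.transpose_mul, hGT, Matrix.smul_mul] at h1
      rw [← h1, smul_smul, ← mul_pow]
      simp
    have hsum : M + G * C.transpose + (-1 : F) ^ e • (C * G) = 0 := by
      rw [hGC, hCG, Matrix.transpose_smul, hMT]
      ext a b
      simp only [D, Matrix.add_apply, Matrix.smul_apply, smul_eq_mul, Matrix.zero_apply]
      have h3 : (-1 : F) ^ e * (-1) ^ e = 1 := by rw [← mul_pow]; simp
      have h4 : (-1 : F) ^ j * (-1) ^ (m₀ + 1) = (-1) ^ e := by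
        rw [show j = (m₀ + 1) + e by omega, pow_add, mul_comm ((-1 : F) ^ (m₀ + 1)) ((-1) ^ e), mul_assoc,
          ← mul_pow]
        simp
      field_simp
      linear_combination ((-1 : F) ^ e * -M a b) * h4 + (-2 * M a b) * h3
    set z : Fin k → V := fun a => ∑ c, C a c • (X ^ e) (y c) with hz
    refine ⟨fun a => y a + z a, fun a => U.add_mem (hy a) (U.sum_mem fun c _ => U.smul_mem _ (pow_mem_inv hinv e (hy c))),
      fun a => ?_, ?_⟩
    · simp only [hz, map_add, map_sum, map_smul, hyj, ← Module.End.mul_apply, ← pow_add,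
        pow_kill (hyj _) (show j ≤ j + e by omega), smul_zero, Finset.sum_const_zero, add_zero]
    have expand : ∀ a b m, j - 1 - e ≤ m → B (y a + z a) ((X ^ m) (y b + z b)) =
        B (y a) ((X ^ m) (y b)) + ∑ c, C b c * B (y a) ((X ^ (m + e)) (y c)) +
          (-1) ^ e * ∑ c, C a c * B (y c) ((X ^ (m + e)) (y b)) := by
      intro a b m hm
      have hzz : B (z a) ((X ^ m) (z b)) = 0 := by
        simp only [hz, map_sum, map_smul, LinearMap.sum_apply, LinearMap.smul_apply, hs.pow,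
          ← Module.End.mul_apply, ← pow_add,
          pow_kill (hyj _) (show j ≤ e + m + e by omega), ← Nat.add_assoc, map_zero, mul_zero, smul_zero,
          Finset.sum_const_zero]
      simp only [map_add, LinearMap.add_apply, hzz, add_zero]
      have e1 : B (y a) ((X ^ m) (z b)) = ∑ c, C b c * B (y a) ((X ^ (m + e)) (y c)) := by
        simp only [hz, map_sum, map_smul, smul_eq_mul, ← Module.End.mul_apply, ← pow_add]
      have e2 : B (z a) ((X ^ m) (y b)) = (-1) ^ e * ∑ c, C a c * B (y c) ((X ^ (m + e)) (y b)) := by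
        simp only [hz, map_sum, map_smul, LinearMap.sum_apply, LinearMap.smul_apply, smul_eq_mul, hs.pow,
          ← Module.End.mul_apply, ← pow_add, Finset.mul_sum, Nat.add_comm e m]
        exact Finset.sum_congr rfl fun c _ => by ring
      rw [e1, e2]
      ring
    refine ⟨fun a b => ?_, fun a b m hm hm' => ?_⟩
    · show B (y a + z a) ((X ^ (j - 1)) (y b + z b)) = _
      rw [expand a b _ (by omega), hyt]
      simp only [pow_kill (hyj _) (show j ≤ j - 1 + e by omega), map_zero, mul_zero, Finset.sum_const_zero,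
        add_zero]
    · show B (y a + z a) ((X ^ m) (y b + z b)) = _
      rw [expand a b m hm]
      rcases eq_or_lt_of_le hm with heq | hlt
      · have hme : m + e = j - 1 := by omega
        have hmm : m = m₀ := by omega
        have h1 := congrFun (congrFun hsum a) b
        rw [hme, hmm]
        simpa [Matrix.mul_apply, M, hyt, mul_comm] using h1
      · rw [hyz a b m (by omega) hm']
        simp only [pow_kill (hyj _) (show j ≤ m + e by omega), map_zero, mul_zero, Finset.sum_const_zero,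
          add_zero]

/-- A single piece with prescribed top pairings. -/
theorem exists_piece (h2 : (2 : F) ≠ 0) (hs : Skew B X) {d : F} (hd : d ≠ 0) {U : Submodule F V}
    (hinv : U.map X ≤ U) (t₀ : ℕ × Bool) (h1 : 1 ≤ t₀.1) (x : Fin (sz t₀.1) → V) (hxU : ∀ a, x a ∈ U)
    (hxj : ∀ a, (X ^ t₀.1) (x a) = 0) (htop : ∀ a b, B (x a) ((X ^ (t₀.1 - 1)) (x b)) = gv d t₀ a b) :
    ∃ (W : Submodule F V) (y : Unit → Fin (sz t₀.1) → V), W ≤ U ∧ NondegIn B W ∧ W.map X ≤ W ∧
      IsNF (fun _ : Unit => t₀) y B X d W := by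
  classical
  let G : Matrix (Fin (sz t₀.1)) (Fin (sz t₀.1)) F := Matrix.of fun a b => gv d t₀ a b
  have hG : IsUnit G.det := by
    rw [← Matrix.isUnit_iff_isUnit_det, ← Matrix.vecMul_injective_iff_isUnit]
    intro c c' hc
    have hc' : Matrix.vecMul c G = Matrix.vecMul c' G := hc
    refine sub_eq_zero.1 (gv_nondeg hd t₀ _ fun b => ?_)
    have := congrFun hc' b
    simp only [Matrix.vecMul, dotProduct, G, Matrix.of_apply] at this
    simp only [Pi.sub_apply, sub_mul, Finset.sum_sub_distrib, this, sub_self]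
  obtain ⟨y, hyU, hyj, hyp⟩ := improve h2 hs hinv G hG x hxU h1 hxj htop
  set t : Unit → ℕ × Bool := fun _ => t₀
  let y' : Unit → Fin (sz t₀.1) → V := fun _ => y
  set W := Submodule.span F (Set.range (chain t y' X)) with hW
  have hnf : IsNF t y' B X d W :=
    ⟨fun _ => h1, fun i a => Submodule.subset_span ⟨⟨i, a, ⟨0, h1⟩⟩, by simp [chain, y']⟩,
      fun _ a => hyj a, fun i i' a b m => by simpa [y', t, G] using hyp a b m, le_rfl⟩
  refine ⟨W, y', Submodule.span_le.2 ?_, ?_, ?_, hnf⟩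
  · rintro _ ⟨s, rfl⟩
    exact pow_mem_inv hinv _ (hyU _)
  · intro w hw hw0
    obtain ⟨c, rfl⟩ := (Submodule.mem_span_range_iff_exists_fun F).1 hw
    have : c = 0 := funext fun ⟨i, a, l⟩ => hnf.coef_zero hs hd c i l (fun b => hw0 _ ?_) a
    · simp [this]
    · exact Submodule.subset_span ⟨⟨i, b, ⟨_, by omega⟩⟩, rfl⟩
  · rw [hW, Submodule.map_span, Submodule.span_le]
    rintro _ ⟨_, ⟨s, rfl⟩, rfl⟩
    rw [apply_chain hnf.kill]
    split_ifs
    · exact Submodule.subset_span ⟨_, rfl⟩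
    · exact zero_mem _

theorem orth_map_le (hs : Skew B X) {W : Submodule F V} (hW : W.map X ≤ W) :
    (B.orthogonal W).map X ≤ B.orthogonal W := by
  rintro _ ⟨z, hz, rfl⟩ w hw
  have h1 : B (X w) z = 0 := hz _ (hW ⟨w, hw, rfl⟩)
  rw [hs.skew] at h1
  exact neg_eq_zero.1 h1

/-- The flag of a piece singles out at most one piece of an even height. -/
def Ok {ι : Type*} (t : ι → ℕ × Bool) : Prop :=
  ∀ i, (t i).2 = true → Even (t i).1 ∧ ∀ i', t i' = t i → i' = i

theorem isSquare_div_of_not [Fintype F] {a d : F} (ha : ¬IsSquare a) (hd : ¬IsSquare d) :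
    IsSquare (a / d) := by
  have hd0 : d ≠ 0 := fun e => hd (e ▸ IsSquare.zero)
  have h1 : a / d = a * d * (d⁻¹ * d⁻¹) := by field_simp
  rw [h1]
  refine IsSquare.mul ?_ ⟨d⁻¹, rfl⟩
  classical
  have ha0 : a ≠ 0 := fun e => ha (e ▸ IsSquare.zero)
  rw [← quadraticChar_one_iff_isSquare (mul_ne_zero ha0 hd0), map_mul,
    quadraticChar_neg_one_iff_not_isSquare.2 ha, quadraticChar_neg_one_iff_not_isSquare.2 hd]
  norm_num

theorem exists_rep_one [Fintype F] (hF : ringChar F ≠ 2) {a a' : F} (ha : a ≠ 0) (ha' : a' ≠ 0) :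
    ∃ u v : F, a * u ^ 2 + a' * v ^ 2 = 1 := by
  obtain ⟨u, v, h⟩ := FiniteField.exists_root_sum_quadratic (f := Polynomial.C a * Polynomial.X ^ 2)
    (g := Polynomial.C a' * Polynomial.X ^ 2 - 1)
    (Polynomial.degree_C_mul_X_pow 2 ha)
    (by rw [Polynomial.degree_sub_eq_left_of_degree_lt] <;>
      simp [Polynomial.degree_C_mul_X_pow 2 ha'])
    (FiniteField.odd_card_of_char_ne_two hF)
  exact ⟨u, v, by simp at h; linear_combination h⟩

variable [FiniteDimensional F V]

theorem exists_top [Fintype F] (hF : ringChar F ≠ 2) (hs : Skew B X) (hnil : IsNilpotent X) {d : F}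
    (hd : ¬IsSquare d) {U : Submodule F V} (hU : NondegIn B U) (hinv : U.map X ≤ U) (hne : U ≠ ⊥) :
    ∃ (t₀ : ℕ × Bool) (W : Submodule F V) (y : Unit → Fin (sz t₀.1) → V),
      W ≤ U ∧ NondegIn B W ∧ W.map X ≤ W ∧ IsNF (fun _ : Unit => t₀) y B X d W ∧
      1 ≤ t₀.1 ∧ U.map (X ^ (t₀.1 - 1)) ≠ ⊥ ∧ U.map (X ^ t₀.1) = ⊥ ∧
      (t₀.2 = true → Even t₀.1 ∧ (U ⊓ B.orthogonal W).map (X ^ (t₀.1 - 1)) = ⊥) := by
  classical
  have h2 : (2 : F) ≠ 0 := Ring.two_ne_zero hF
  have hd0 : d ≠ 0 := fun e => hd (e ▸ IsSquare.zero)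
  have hex : ∃ j, U.map (X ^ j) = ⊥ := by
    obtain ⟨n, hn⟩ := hnil
    exact ⟨n, by rw [hn, Submodule.map_zero]⟩
  set j := Nat.find hex with hj
  have hj0 : U.map (X ^ j) = ⊥ := Nat.find_spec hex
  have hjx : ∀ x ∈ U, (X ^ j) x = 0 := fun x hx => (Submodule.eq_bot_iff _).1 hj0 _ ⟨x, hx, rfl⟩
  have hj1 : 1 ≤ j := by
    by_contra hlt
    rw [show j = 0 by omega, pow_zero, Module.End.one_eq_id, Submodule.map_id] at hj0
    exact hne hj0
  have htop : U.map (X ^ (j - 1)) ≠ ⊥ := Nat.find_min hex (show j - 1 < j by omega)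
  obtain ⟨_, ⟨x, hx, rfl⟩, hx0⟩ := Submodule.exists_mem_ne_zero_of_ne_bot htop
  obtain ⟨y, hy, hy0⟩ : ∃ y ∈ U, B y ((X ^ (j - 1)) x) ≠ 0 := by
    by_contra hc
    push Not at hc
    exact hx0 (hU _ (pow_mem_inv hinv _ hx) fun y hy => comm_zero hs.alt (hc y hy))
  rcases Nat.even_or_odd j with he | ho
  · have hp : (-1 : F) ^ (j - 1) = -1 := Odd.neg_one_pow (Nat.Even.sub_odd hj1 he odd_one)
    have hsym : ∀ a b, B a ((X ^ (j - 1)) b) = B b ((X ^ (j - 1)) a) := fun a b => by
      rw [hs.swap, hp]; ring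
    have hsz := sz_even he
    have mk : ∀ (z : V), z ∈ U → ∀ s : Bool, B z ((X ^ (j - 1)) z) = (if s then d else 1) →
        ∃ (W : Submodule F V) (y : Unit → Fin (sz j) → V), W ≤ U ∧ NondegIn B W ∧ W.map X ≤ W ∧
          IsNF (fun _ : Unit => (j, s)) y B X d W := fun z hz s hzs =>
      exists_piece h2 hs hd0 hinv (j, s) hj1 (fun _ => z) (fun _ => hz) (fun _ => hjx z hz) fun a b => by
        rw [hzs, gv, if_pos he]
    have hquad : ∀ (z w : V) (r : F) (q : F), B (r • z + q • w) ((X ^ (j - 1)) (r • z + q • w)) =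
        r ^ 2 * B z ((X ^ (j - 1)) z) + 2 * r * q * B z ((X ^ (j - 1)) w) + q ^ 2 * B w ((X ^ (j - 1)) w) := by
      intro z w r q
      simp only [map_add, map_smul, LinearMap.add_apply, LinearMap.smul_apply, smul_eq_mul, hsym w z]
      ring
    by_cases hone : ∃ z ∈ U, B z ((X ^ (j - 1)) z) = 1
    · obtain ⟨z, hz, hz1⟩ := hone
      obtain ⟨W, y, hW⟩ := mk z hz false (by simpa using hz1)
      exact ⟨(j, false), W, y, hW.1, hW.2.1, hW.2.2.1, hW.2.2.2, hj1, htop, hj0, fun h => by simp at h⟩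
    push Not at hone
    obtain ⟨z, hz, hz0⟩ : ∃ z ∈ U, B z ((X ^ (j - 1)) z) ≠ 0 := by
      by_contra hc
      push Not at hc
      have h1 := hc (x + y) (U.add_mem hx hy)
      simp only [map_add, LinearMap.add_apply, hc x hx, hc y hy, hsym x y, add_zero, zero_add] at h1
      exact hy0 ((mul_eq_zero.1 (show (2 : F) * B y ((X ^ (j - 1)) x) = 0 by linear_combination h1)).resolve_left h2)
    have hns : ∀ w ∈ U, B w ((X ^ (j - 1)) w) ≠ 0 → ¬IsSquare (B w ((X ^ (j - 1)) w)) := by
      rintro w hw hw0 ⟨c, hc⟩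
      refine hone (c⁻¹ • w) (U.smul_mem _ hw) ?_
      have hc0 : c ≠ 0 := fun e => hw0 (by rw [hc, e, mul_zero])
      simp only [map_smul, LinearMap.smul_apply, smul_eq_mul, hc]
      field_simp
    obtain ⟨c, hc⟩ := isSquare_div_of_not (hns z hz hz0) hd
    have hc0 : c ≠ 0 := fun e => hz0 (by
      rw [e, mul_zero, div_eq_zero_iff] at hc; exact hc.resolve_right hd0)
    obtain ⟨W, yW, hWU, hW, hWinv, hWnf⟩ := mk (c⁻¹ • z) (U.smul_mem _ hz) true (by
      simp only [map_smul, LinearMap.smul_apply, smul_eq_mul, if_true]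
      rw [(div_eq_iff hd0).1 hc]; field_simp)
    refine ⟨(j, true), W, yW, hWU, hW, hWinv, hWnf, hj1, htop, hj0, fun _ => ⟨he, ?_⟩⟩
    obtain ⟨hsup, hR, -⟩ := AltIsometry.split hs.alt hU hW hWU
    set R := U ⊓ B.orthogonal W
    have hRinv : R.map X ≤ R := (Submodule.map_inf_le _).trans (inf_le_inf hinv (orth_map_le hs hWinv))
    set z₁ := yW () ⟨0, sz_pos j⟩
    have hz₁ : z₁ ∈ W := hWnf.mem _ _
    have hz₁v : B z₁ ((X ^ (j - 1)) z₁) = d := by
      rw [hWnf.pair, if_pos ⟨rfl, by simp only; omega⟩, gv, if_pos he, if_pos rfl]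
    have hR0 : ∀ w ∈ R, B w ((X ^ (j - 1)) w) = 0 := by
      intro w hw
      by_contra hw0
      obtain ⟨r, q, hrq⟩ := exists_rep_one hF hd0 hw0
      refine hone (r • z₁ + q • w) (U.add_mem (U.smul_mem _ (hWU hz₁)) (U.smul_mem _ hw.1)) ?_
      have h0 : B z₁ ((X ^ (j - 1)) w) = 0 := (pow_mem_inv hRinv (j - 1) hw).2 z₁ hz₁
      rw [hquad, hz₁v, h0]
      linear_combination hrq
    rw [Submodule.eq_bot_iff]
    rintro _ ⟨w, hw, rfl⟩
    refine hR _ (pow_mem_inv hRinv _ hw) fun w' hw' => comm_zero hs.alt ?_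
    have h1 := hR0 (w + w') (R.add_mem hw hw')
    simp only [map_add, LinearMap.add_apply, hR0 w hw, hR0 w' hw', hsym w w', add_zero, zero_add] at h1
    exact (mul_eq_zero.1 (show (2 : F) * B w' ((X ^ (j - 1)) w) = 0 by linear_combination h1)).resolve_left h2
  · have hp : (-1 : F) ^ (j - 1) = 1 := Even.neg_one_pow (Nat.Odd.sub_odd ho odd_one)
    have hanti : ∀ a b, B a ((X ^ (j - 1)) b) = -B b ((X ^ (j - 1)) a) := fun a b => by rw [hs.swap, hp]; ring
    have hdiag : ∀ a, B a ((X ^ (j - 1)) a) = 0 := fun a =>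
      (mul_eq_zero.1 (show (2 : F) * B a ((X ^ (j - 1)) a) = 0 by linear_combination hanti a a)).resolve_left h2
    set r := B y ((X ^ (j - 1)) x)
    set y₁ : V := (-r⁻¹) • y with hy₁
    have h10 : B y₁ ((X ^ (j - 1)) x) = -1 := by
      simp only [hy₁, map_smul, LinearMap.smul_apply, smul_eq_mul, neg_mul, r, inv_mul_cancel₀ hy0]
    have h01 : B x ((X ^ (j - 1)) y₁) = 1 := by rw [hanti, h10, neg_neg]
    have hsz := sz_odd ho
    let xx : Fin (sz j) → V := fun a => if (a : ℕ) = 0 then x else y₁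
    have hxx : ∀ a, xx a ∈ U := fun a => by
      simp only [xx]; split_ifs; exacts [hx, U.smul_mem _ hy]
    obtain ⟨W, yW, hWU, hW, hWinv, hWnf⟩ := exists_piece h2 hs hd0 hinv (j, false) hj1 xx hxx
      (fun a => hjx _ (hxx a)) fun a b => by
        have ha := a.2
        have hb := b.2
        simp only [hsz] at ha hb
        rw [gv, if_neg (Nat.not_even_iff_odd.2 ho)]
        simp only [xx]
        split_ifs <;> first | exact hdiag _ | exact h01 | exact h10 | omega
    exact ⟨(j, false), W, yW, hWU, hW, hWinv, hWnf, hj1, htop, hj0, fun h => by simp at h⟩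

/-- Every non-degenerate invariant subspace has a normal form. -/
theorem exists_nf [Fintype F] (hF : ringChar F ≠ 2) (hs : Skew B X) (hnil : IsNilpotent X) {d : F}
    (hd : ¬IsSquare d) : ∀ {U : Submodule F V}, NondegIn B U → U.map X ≤ U →
      ∃ (ι : Type) (_ : Fintype ι) (_ : DecidableEq ι) (t : ι → ℕ × Bool)
        (x : (i : ι) → Fin (sz (t i).1) → V),
        IsNF t x B X d U ∧ Ok t ∧ ∀ i, U.map (X ^ ((t i).1 - 1)) ≠ ⊥ := by
  classical
  intro U
  induction hn : finrank F U using Nat.strong_induction_on generalizing U with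
  | _ n ih =>
  subst hn
  intro hU hinv
  by_cases hne : U = ⊥
  · subst hne
    exact ⟨Empty, inferInstance, inferInstance, fun i => i.elim, fun i => i.elim,
      ⟨fun i => i.elim, fun i => i.elim, fun i => i.elim, fun i => i.elim, bot_le⟩, fun i => i.elim, fun i => i.elim⟩
  obtain ⟨t₀, W, y₀, hWU, hW, hWinv, hWnf, hj1, htop, hj0, hflag⟩ := exists_top hF hs hnil hd hU hinv hne
  obtain ⟨hsup, hR, hRd⟩ := AltIsometry.split hs.alt hU hW hWU
  set R := U ⊓ B.orthogonal W with hRdef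
  have hRinv : R.map X ≤ R := (Submodule.map_inf_le _).trans (inf_le_inf hinv (orth_map_le hs hWinv))
  have hWpos : W ≠ ⊥ := fun e => by
    have hd0 : d ≠ 0 := fun e => hd (e ▸ IsSquare.zero)
    have := (hWnf.linearIndependent hs hd0).ne_zero (⟨(), ⟨0, sz_pos _⟩, ⟨0, hj1⟩⟩ : Idx fun _ : Unit => t₀)
    exact this (by
      have := hWnf.mem () ⟨0, sz_pos _⟩
      rw [e, Submodule.mem_bot] at this
      simp [chain, this])
  have hlt : finrank F R < finrank F U := by
    have : 0 < finrank F W := Nat.pos_of_ne_zero fun e => hWpos (Submodule.finrank_eq_zero.1 e)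
    omega
  obtain ⟨ι, _, _, t, x, hnf, hok, htops⟩ := ih _ hlt rfl hR hRinv
  let t' : Option ι → ℕ × Bool := fun o => o.elim t₀ t
  let x' : (o : Option ι) → Fin (sz (t' o).1) → V := fun o =>
    match o with
    | none => y₀ ()
    | some i => x i
  have cross : ∀ (a : Fin (sz t₀.1)) (i : ι) (b : Fin (sz (t i).1)) (m : ℕ),
      B (y₀ () a) ((X ^ m) (x i b)) = 0 := fun a i b m =>
    (pow_mem_inv hRinv m (hnf.mem i b)).2 _ (hWnf.mem () a)
  refine ⟨Option ι, inferInstance, inferInstance, t', x', ⟨?_, ?_, ?_, ?_, ?_⟩, ?_, ?_⟩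
  · rintro (_ | i); exacts [hj1, hnf.pos i]
  · rintro (_ | i) a; exacts [hWU (hWnf.mem () a), (hnf.mem i a).1]
  · rintro (_ | i) a; exacts [hWnf.kill () a, hnf.kill i a]
  · rintro (_ | i) (_ | i') a b m
    · simpa [x', t'] using hWnf.pair () () a b m
    · rw [if_neg (by simp)]; exact cross a i' b m
    · rw [if_neg (by simp), hs.swap]
      simp only [x']
      rw [cross b i a m, mul_zero, neg_zero]
    · simpa [x', t'] using hnf.pair i i' a b m
  · rw [← hsup]
    refine sup_le (hWnf.span_le.trans (Submodule.span_mono ?_)) (hnf.span_le.trans (Submodule.span_mono ?_))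
    · rintro _ ⟨⟨⟨⟩, a, l⟩, rfl⟩; exact ⟨⟨none, a, l⟩, rfl⟩
    · rintro _ ⟨⟨i, a, l⟩, rfl⟩; exact ⟨⟨some i, a, l⟩, rfl⟩
  · rintro (_ | i) hi
    · refine ⟨(hflag hi).1, ?_⟩
      rintro (_ | i') e
      · rfl
      · refine absurd ?_ (htops i')
        rw [show t i' = t₀ from e]
        exact (hflag hi).2
    · refine ⟨(hok i hi).1, ?_⟩
      rintro (_ | i') e
      · refine absurd ?_ (htops i)
        have e' : t₀ = t i := e
        rw [← e']
        exact (hflag (by rw [e']; exact hi)).2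
      · exact congrArg some ((hok i hi).2 i' e)
  · rintro (_ | i)
    · exact htop
    · exact fun e => htops i (le_bot_iff.1 ((Submodule.map_mono inf_le_left).trans e.le))

end CfsgLib.Classical.SympUnipotent
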