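import Cfsg.Agent.Classical.SympUnipotent.Decomp

/-!
The configuration of a normal form is an invariant of the isometry class.
-/

set_option autoImplicit false

namespace CfsgLib.Classical.SympUnipotent

open Module

variable {F : Type*} [Field F] {V : Type*} [AddCommGroup V] [Module F V]
  {B : LinearMap.BilinForm F V} {X : Module.End F V}
  {V' : Type*} [AddCommGroup V'] [Module F V'] {B' : LinearMap.BilinForm F V'} {X' : Module.End F V'}
  {ι : Type} [Fintype ι] [DecidableEq ι] {t : ι → ℕ × Bool} {x : (i : ι) → Fin (sz (t i).1) → V}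
  {ι' : Type} [Fintype ι'] [DecidableEq ι'] {t' : ι' → ℕ × Bool} {x' : (i : ι') → Fin (sz (t' i).1) → V'}
  {d : F}

/-- Chains of length `j`. -/
abbrev Lay (t : ι → ℕ × Bool) (j : ℕ) := Σ i : {i // (t i).1 = j}, Fin (sz (t i.1).1)

/-- The form on the chains of length `j`. -/
def layForm (d : F) (t : ι → ℕ × Bool) (j : ℕ) : Matrix (Lay t j) (Lay t j) F :=
  Matrix.of fun p q => if p.1 = q.1 then gv d (t p.1.1) p.2 q.2 else 0

theorem layForm_nondeg (hd : d ≠ 0) (j : ℕ) (c : Lay t j → F) (h : Matrix.vecMul c (layForm d t j) = 0) : c = 0 := by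
  funext p
  obtain ⟨i, a⟩ := p
  refine congrFun (gv_nondeg hd (t i.1) (fun a => c ⟨i, a⟩) fun b => ?_) a
  have h1 := congrFun h ⟨i, b⟩
  rw [Matrix.vecMul, dotProduct, Fintype.sum_sigma, Finset.sum_eq_single i] at h1
  · simpa [layForm] using h1
  · exact fun i' _ hi => Finset.sum_eq_zero fun a' _ => by simp [layForm, hi]
  · exact fun hh => absurd (Finset.mem_univ _) hh

theorem IsNF.top_form (h : IsNF t x B X d ⊤) (hs : Skew B X) (hd : d ≠ 0) {j : ℕ} (hj : 1 ≤ j) {z w : V}
    (hz : (X ^ j) z = 0) (hw : (X ^ j) w = 0) :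
    B z ((X ^ (j - 1)) w) = ∑ p : Lay t j, ∑ q : Lay t j,
      (h.basis hs hd).repr z ⟨p.1.1, p.2, ⟨0, h.pos _⟩⟩ * (h.basis hs hd).repr w ⟨q.1.1, q.2, ⟨0, h.pos _⟩⟩ *
        layForm d t j p q := by
  classical
  set b := h.basis hs hd with hb
  have low : ∀ v, (X ^ j) v = 0 → ∀ s : Idx t, (s.2.2 : ℕ) + j < (t s.1).1 → b.repr v s = 0 := by
    intro v hv s hlt
    obtain ⟨i, a, l⟩ := s
    have hv' : (∑ s, b.repr v s • chain t x X s) = v := by
      conv_rhs => rw [← b.sum_repr v]
      exact Finset.sum_congr rfl fun s _ => by rw [hb, h.basis_apply hs hd]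
    refine h.coef_zero hs hd (fun s => b.repr v s) i l (fun b' => ?_) a
    rw [hv', show (t i).1 - 1 - (l : ℕ) = j + ((t i).1 - 1 - l - j) by simp only at hlt; omega, pow_add,
      Module.End.mul_apply]
    have h1 := hs.pow j v ((X ^ ((t i).1 - 1 - l - j)) (x i b'))
    rw [hv, map_zero, LinearMap.zero_apply] at h1
    exact (mul_eq_zero.1 h1.symm).resolve_left (pow_ne_zero _ (neg_ne_zero.2 one_ne_zero))
  let g : Lay t j → Idx t := fun p => ⟨p.1.1, p.2, ⟨0, h.pos _⟩⟩
  have hg : Function.Injective g := by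
    rintro ⟨⟨i, hi⟩, a⟩ ⟨⟨i', hi'⟩, a'⟩ e
    simp only [g, Sigma.mk.injEq] at e
    obtain ⟨rfl, e2⟩ := e
    simp only [heq_eq_eq, Prod.mk.injEq, and_true] at e2
    rw [e2]
  let T : Idx t → Idx t → F := fun s r => b.repr z s * b.repr w r * B (chain t x X s) ((X ^ (j - 1)) (chain t x X r))
  have hT : ∀ s r, T s r ≠ 0 → s ∈ Set.range g ∧ r ∈ Set.range g := by
    rintro ⟨i, a, l⟩ ⟨i', a', l'⟩ hne
    simp only [T, chain, ← Module.End.mul_apply (f := X ^ (j - 1)), ← pow_add, h.chain_pair hs] at hne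
    split_ifs at hne with hc
    swap
    · simp at hne
    obtain ⟨rfl, hlen⟩ := hc
    simp only [ne_eq, mul_eq_zero, not_or] at hne
    have h1 : ¬((l : ℕ) + j < (t i).1) := fun hh => hne.1.1 (low z hz _ hh)
    have h2 : ¬((l' : ℕ) + j < (t i).1) := fun hh => hne.1.2 (low w hw _ hh)
    have hl := l.2
    have hij : (t i).1 = j := by omega
    exact ⟨⟨⟨⟨i, hij⟩, a⟩, by simp only [g, Sigma.mk.injEq, heq_eq_eq, true_and, Prod.mk.injEq]; exact Fin.ext (by simp only; omega)⟩,
      ⟨⟨⟨i, hij⟩, a'⟩, by simp only [g, Sigma.mk.injEq, heq_eq_eq, true_and, Prod.mk.injEq]; exact Fin.ext (by simp only; omega)⟩⟩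
  have hexp : B z ((X ^ (j - 1)) w) = ∑ s, ∑ r, T s r := by
    conv_lhs => rw [← b.sum_repr z, ← b.sum_repr w]
    simp only [map_sum, map_smul, LinearMap.sum_apply, LinearMap.smul_apply, smul_eq_mul, T]
    simp only [Finset.mul_sum]
    conv_rhs => rw [Finset.sum_comm]
    refine Finset.sum_congr rfl fun s _ => Finset.sum_congr rfl fun r _ => ?_
    rw [hb, h.basis_apply hs hd, h.basis_apply hs hd]
    ring
  rw [hexp]
  refine (Fintype.sum_of_injective g hg _ _ (fun s hs' => ?_) fun p => ?_).symm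
  · exact Finset.sum_eq_zero fun r _ => by_contra fun hne => hs' (hT s r hne).1
  · refine Fintype.sum_of_injective g hg _ _ (fun r hr => by_contra fun hne => hr (hT _ r hne).2) fun q => ?_
    show _ = T (g p) (g q)
    simp only [T, g, chain, pow_zero, Module.End.one_apply]
    congr 1
    rw [h.pair]
    unfold layForm
    simp only [Matrix.of_apply]
    by_cases hpq : p.1 = q.1
    · rw [if_pos hpq, if_pos ⟨congrArg Subtype.val hpq, by rw [p.1.2]; omega⟩]
    · rw [if_neg hpq, if_neg fun e => hpq (Subtype.ext e.1)]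

/-- The layer forms of isometric normal forms are congruent. -/
theorem exists_congr (h : IsNF t x B X d ⊤) (h' : IsNF t' x' B' X' d ⊤) (hs' : Skew B' X')
    (hd : d ≠ 0) (φ : V →ₗ[F] V') (hX : ∀ v, φ (X v) = X' (φ v)) (hB : ∀ v w, B' (φ v) (φ w) = B v w)
    {j : ℕ} (hj : 1 ≤ j) :
    ∃ A : Matrix (Lay t j) (Lay t' j) F, layForm d t j = A * layForm d t' j * A.transpose := by
  classical
  refine ⟨Matrix.of fun p r => (h'.basis hs' hd).repr (φ (x p.1.1 p.2)) ⟨r.1.1, r.2, ⟨0, h'.pos _⟩⟩, ?_⟩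
  have hpow : ∀ (n : ℕ) (v : V), φ ((X ^ n) v) = (X' ^ n) (φ v) := by
    intro n
    induction n with
    | zero => simp
    | succ n ih => intro v; rw [pow_succ', pow_succ', Module.End.mul_apply, Module.End.mul_apply, hX, ih]
  ext p q
  have hk : ∀ r : Lay t j, (X' ^ j) (φ (x r.1.1 r.2)) = 0 := fun r => by
    have := h.kill r.1.1 r.2
    rw [r.1.2] at this
    rw [← hpow, this, map_zero]
  have h1 := h'.top_form hs' hd hj (hk p) (hk q)
  rw [← hpow, hB, h.pair] at h1
  have h2 : layForm d t j p q = _ := Eq.trans ?_ h1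
  · rw [h2]
    simp only [Matrix.mul_apply, Matrix.transpose_apply, Matrix.of_apply, Finset.sum_mul]
    rw [Finset.sum_comm]
    exact Finset.sum_congr rfl fun r _ => Finset.sum_congr rfl fun s _ => by ring
  · simp only [layForm, Matrix.of_apply]
    by_cases hpq : p.1 = q.1
    · rw [if_pos hpq, if_pos ⟨congrArg Subtype.val hpq, by rw [p.1.2]; omega⟩]
    · rw [if_neg hpq, if_neg fun e => hpq (Subtype.ext e.1)]

theorem card_lay (t : ι → ℕ × Bool) (j : ℕ) :
    Fintype.card (Lay t j) = Fintype.card {i // (t i).1 = j} * sz j := by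
  rw [Fintype.card_sigma, Finset.sum_congr rfl fun (i : {i // (t i).1 = j}) _ =>
    show Fintype.card (Fin (sz (t i.1).1)) = sz j by rw [Fintype.card_fin, i.2]]
  simp

theorem card_lay_le (h : IsNF t x B X d ⊤) (h' : IsNF t' x' B' X' d ⊤) (hs' : Skew B' X')
    (hd : d ≠ 0) (φ : V →ₗ[F] V') (hX : ∀ v, φ (X v) = X' (φ v)) (hB : ∀ v w, B' (φ v) (φ w) = B v w)
    {j : ℕ} (hj : 1 ≤ j) : Fintype.card (Lay t j) ≤ Fintype.card (Lay t' j) := by
  obtain ⟨A, hA⟩ := exists_congr h h' hs' hd φ hX hB hj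
  have hinj : Function.Injective A.vecMulLinear := by
    intro c c' hc
    refine sub_eq_zero.1 (layForm_nondeg hd j _ ?_)
    rw [hA, ← Matrix.vecMul_vecMul, ← Matrix.vecMul_vecMul, Matrix.sub_vecMul,
      show Matrix.vecMul c A = Matrix.vecMul c' A from hc, sub_self, Matrix.zero_vecMul, Matrix.zero_vecMul]
  simpa using LinearMap.finrank_le_finrank_of_injective hinj

/-- Number of pieces with prescribed height and flag. -/
def cnt (t : ι → ℕ × Bool) (v : ℕ × Bool) : ℕ := Fintype.card {i // t i = v}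

theorem cnt_add (t : ι → ℕ × Bool) (j : ℕ) :
    cnt t (j, false) + cnt t (j, true) = Fintype.card {i // (t i).1 = j} := by
  simp only [cnt, Fintype.card_subtype]
  rw [← Finset.card_union_of_disjoint]
  · congr 1
    ext i
    simp only [Finset.mem_union, Finset.mem_filter, Finset.mem_univ, true_and]
    rcases t i with ⟨k, _ | _⟩ <;> simp
  · exact Finset.disjoint_left.2 fun i h1 h2 => by simp_all

theorem cnt_true_le (hok : Ok t) (j : ℕ) : cnt t (j, true) ≤ 1 := by
  rw [cnt, Fintype.card_le_one_iff]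
  rintro ⟨i, hi⟩ ⟨i', hi'⟩
  exact Subtype.ext (((hok i (by rw [hi])).2 i' (hi'.trans hi.symm)).symm)

theorem cnt_true_odd (hok : Ok t) {j : ℕ} (hj : Odd j) : cnt t (j, true) = 0 := by
  rw [cnt, Fintype.card_eq_zero_iff]
  refine ⟨fun ⟨i, hi⟩ => ?_⟩
  have := (hok i (by rw [hi])).1
  rw [hi] at this
  exact Nat.not_even_iff_odd.2 hj this

theorem det_layForm {j : ℕ} (hj : Even j) : (layForm d t j).det = d ^ cnt t (j, true) := by
  classical
  have hdiag : layForm d t j = Matrix.diagonal fun p => if t p.1.1 = (j, true) then d else 1 := by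
    ext ⟨i, a⟩ ⟨i', b⟩
    by_cases hii : i = i'
    · subst hii
      have hab : a = b := by
        have ha := a.2
        have hb := b.2
        have hsz : sz (t i.1).1 = 1 := by rw [i.2, sz_even hj]
        exact Fin.ext (by omega)
      subst hab
      simp only [layForm, Matrix.of_apply, if_true, Matrix.diagonal_apply_eq, gv, i.2, if_pos hj]
      have hi := i.2
      rcases hti : t i.1 with ⟨k, s⟩
      rw [hti] at hi
      cases s <;> simp_all
    · rw [Matrix.diagonal_apply_ne]
      · simp [layForm, hii]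
      · simp [hii]
  rw [hdiag, Matrix.det_diagonal, Finset.prod_ite, Finset.prod_const, Finset.prod_const_one, mul_one, cnt,
    Fintype.card_subtype]
  congr 1
  refine Finset.card_bij' (fun p _ => p.1.1) (fun i hi => ⟨⟨i, by simp at hi; rw [hi]⟩, ⟨0, sz_pos _⟩⟩)
    (fun p hp => by simpa using hp) (fun i hi => by simpa using hi) (fun p _ => ?_) (fun i _ => rfl)
  obtain ⟨⟨i, hi⟩, a⟩ := p
  have ha := a.2
  have hsz : sz (t i).1 = 1 := by rw [hi, sz_even hj]
  simp only [Sigma.mk.injEq, heq_eq_eq, true_and]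
  exact Fin.ext (by simp only at ha ⊢; omega)

/-- Isometric normal forms have the same configuration. -/
theorem cnt_eq (h : IsNF t x B X d ⊤) (h' : IsNF t' x' B' X' d ⊤) (hs : Skew B X) (hs' : Skew B' X')
    (hok : Ok t) (hok' : Ok t') (hd : ¬IsSquare d) (φ : V ≃ₗ[F] V') (hX : ∀ v, φ (X v) = X' (φ v))
    (hB : ∀ v w, B' (φ v) (φ w) = B v w) (v : ℕ × Bool) : cnt t v = cnt t' v := by
  classical
  have hd0 : d ≠ 0 := fun e => hd (e ▸ IsSquare.zero)
  obtain ⟨j, s⟩ := v
  by_cases hj : j = 0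
  · subst hj
    rw [cnt, cnt, Fintype.card_eq_zero_iff.2 ⟨fun ⟨i, hi⟩ => by have := h.pos i; rw [hi] at this; simp at this⟩,
      Fintype.card_eq_zero_iff.2 ⟨fun ⟨i, hi⟩ => by have := h'.pos i; rw [hi] at this; simp at this⟩]
  have hj1 : 1 ≤ j := Nat.pos_of_ne_zero hj
  have hcard : Fintype.card (Lay t j) = Fintype.card (Lay t' j) :=
    le_antisymm (card_lay_le h h' hs' hd0 φ.toLinearMap hX hB hj1)
      (card_lay_le h' h hs hd0 φ.symm.toLinearMap
        (fun v => φ.injective (by simp [hX]))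
        (fun v w => by simpa using (hB (φ.symm v) (φ.symm w)).symm) hj1)
  have hn : Fintype.card {i // (t i).1 = j} = Fintype.card {i // (t' i).1 = j} := by
    rw [card_lay, card_lay] at hcard
    exact Nat.eq_of_mul_eq_mul_right (sz_pos j) hcard
  have htrue : cnt t (j, true) = cnt t' (j, true) := by
    rcases Nat.even_or_odd j with he | ho
    swap
    · rw [cnt_true_odd hok ho, cnt_true_odd hok' ho]
    obtain ⟨A, hA⟩ := exists_congr h h' hs' hd0 φ.toLinearMap hX hB hj1
    let e := Fintype.equivOfCardEq hcard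
    have h1 : (layForm d t j).det =
        (A.submatrix id e).det ^ 2 * ((layForm d t' j).submatrix e e).det := by
      conv_lhs => rw [hA]
      rw [show A * layForm d t' j * A.transpose =
          A.submatrix id e * (layForm d t' j).submatrix e e * (A.submatrix id e).transpose by
        rw [Matrix.transpose_submatrix, Matrix.submatrix_mul_equiv, Matrix.submatrix_mul_equiv, Matrix.submatrix_id_id],
        Matrix.det_mul, Matrix.det_mul, Matrix.det_transpose]
      ring
    rw [Matrix.det_submatrix_equiv_self, det_layForm he, det_layForm he] at h1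
    have a1 := cnt_true_le hok j
    have a2 := cnt_true_le hok' j
    set a := (A.submatrix id e).det
    interval_cases hu : cnt t (j, true) <;> interval_cases hv : cnt t' (j, true)
    · rfl
    · exfalso
      refine hd ⟨a⁻¹, ?_⟩
      have ha : a ≠ 0 := fun e0 => by simp [e0] at h1
      field_simp
      linear_combination -h1
    · exfalso
      exact hd ⟨a, by linear_combination h1⟩
    · rfl
  cases s
  · have e1 := cnt_add t j
    have e2 := cnt_add t' j
    omega
  · exact htrue

end CfsgLib.Classical.SympUnipotent
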